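import Cfsg.Agent.Lib.Spor.J2.Tab
import Cfsg.Agent.Lib.PG.Word

/-!
The kernel computations on the table of minimal vectors.
-/

set_option autoImplicit false
set_option maxRecDepth 100000
set_option Elab.async false

namespace Cfsg.Agent.Spor.Ico

open Cfsg.Agent.PG Q8

/-- existential quantifier over a list -/
noncomputable def anyL {α : Type} (l : List α) (p : α → Bool) : Bool :=
  List.rec (motive := fun _ => Bool) false (fun a _ ih => orB (p a) ih) l

theorem anyL_spec {α : Type} {l : List α} {p : α → Bool} (h : anyL l p = true) :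
    ∃ a ∈ l, p a = true := by
  induction l with
  | nil => cases h
  | cons b l ih =>
    have h' : orB (p b) (anyL l p) = true := h
    rw [orB_eq, Bool.or_eq_true] at h'
    rcases h' with h1 | h1
    · exact ⟨b, List.mem_cons_self, h1⟩
    · obtain ⟨a, h2, h3⟩ := ih h1
      exact ⟨a, List.mem_cons_of_mem _ h2, h3⟩

/-- the table of lines -/
noncomputable def tb (i : ℕ) : V3 := V3.dec (nthD 0x88888888888888888888888c tabL i)

/-- the reflection `j` permutes the table -/
noncomputable def refOK (j : ℕ) : Bool :=
  (tb j).nf fun s => allN 315 fun k => force (nthD 0 (nthD [] imgL j) k) fun m =>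
    andB (Nat.blt m 315) (V3.refB s (tb k) (tb m))

/-- the vector is a multiple of a vector of the table -/
noncomputable def fnd (v : V3) : Bool :=
  anyL solL fun q => andB (v.x.eqB (V3.dec q.1).x) <| andB (v.z.eqB (V3.dec q.1).z) <|
    andB (Nat.blt q.2 315) (v.simB (tb q.2))

/-- the normal forms with first coordinate `x` -/
noncomputable def pass (x : Q8) : Bool :=
  andB (iteB (inI 4 ((x.sub (int 2)).mul H.star)) (allL zL fun c => (Q8.dec c).nf fun z =>
      iteB (andB (decide (x.nb + z.nb = 0)) (V3.cong ⟨x, int 2, z⟩)) (fnd ⟨x, int 2, z⟩) true) true)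
    (iteB (andB (inI 4 ((x.sub H).mul H.star)) (V3.cong ⟨x, H, int 0⟩))
      (orB (!decide (x.nb = 0)) (fnd ⟨x, H, int 0⟩)) true)

theorem tb_min : allL tabL (fun c => (V3.dec c).minB) = true := by decide +kernel

theorem ref0 : refOK 0 = true := by decide +kernel

theorem ref1 : refOK 1 = true := by decide +kernel

theorem ref2 : refOK 2 = true := by decide +kernel

theorem ref3 : refOK 3 = true := by decide +kernel

theorem pass_ok : allQ 8 pass = true := by decide +kernel

theorem z_ok : allQ 4 (fun z => iteB (inI 4 (((int 2).sub z).mul H.star))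
    (anyL zL fun c => z.eqB (Q8.dec c)) true) = true := by decide +kernel

theorem u_ok : allQ 4 (fun z => iteB (decide (z.nb = 0))
    (anyL unitL fun c => z.eqB (Q8.dec c)) true) = true := by decide +kernel

theorem u_ok' : allL unitL (fun c => (Q8.dec c).nf fun z => andB z.isI <|
    andB (decide (z.na = 4)) (decide (z.nb = 0))) = true := by decide +kernel

theorem u_ne : unitL.Pairwise fun a b => (Q8.dec a).eqB (Q8.dec b) = false := by decide +kernel

end Cfsg.Agent.Spor.Ico
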