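import Cfsg.Agent.Lib.Spor.J2.Chk
import Cfsg.Agent.Lib.PG.Chain

/-!
The classification of the minimal vectors of the icosian lattice.
-/

set_option autoImplicit false
set_option maxRecDepth 100000

namespace Cfsg.Agent.Spor.Ico

open Quaternion Cfsg.Spor Cfsg.Agent.PG Q8

theorem tb_mem (i : ℕ) : (tb i).ev ∈ Mn := by
  rcases nthD_mem_or 0x88888888888888888888888c tabL i with h | h
  · rw [tb, h]; exact V3.minB_spec (by decide +kernel)
  · exact V3.minB_spec (allL_spec tb_min _ h)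

theorem ev_eq_of {v : V3} {x y z : Q8}
    (h : andB (v.x.eqB x) (andB (v.y.eqB y) (v.z.eqB z)) = true) : v.ev = ![x.hv, y.hv, z.hv] := by
  simp only [andB_eq, Bool.and_eq_true, eqB_iff] at h
  rw [← h.1, ← h.2.1, ← h.2.2]; rfl

theorem tb0 : (tb 0).ev = ![2, 0, 0] := by
  rw [ev_eq_of (x := int 4) (y := int 0) (z := int 0) (by decide +kernel), hv_four, hv_zero]

theorem tb1 : (tb 1).ev = ![icoH, -icoH, 0] := by
  rw [ev_eq_of (x := H) (y := (int 0).sub H) (z := int 0) (by decide +kernel), hv_sub, hv_zero,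
    hv_H, zero_sub]

theorem tb2 : (tb 2).ev = ![0, icoH, -icoH] := by
  rw [ev_eq_of (y := H) (z := (int 0).sub H) (x := int 0) (by decide +kernel), hv_sub, hv_zero,
    hv_H, zero_sub]

/-- a multiple of a vector of the table -/
def Good (r : V) : Prop := ∃ i < 315, ∃ u ∈ icosians, r = u • (tb i).ev

theorem Good.smul {c : ℍ[ℝ]} (hc : c ∈ icosians) {r : V} (h : Good r) : Good (c • r) := by
  obtain ⟨i, hi, u, hu, rfl⟩ := h
  exact ⟨i, hi, c * u, mul_mem hc hu, smul_smul _ _ _⟩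

theorem ref_ok {j : ℕ} (hj : j < 4) {k : ℕ} (hk : k < 315) : (imgL.getD j []).getD k 0 < 315 ∧
    ∃ u ∈ icosians, qrefl (tb j).ev (tb k).ev = u • (tb ((imgL.getD j []).getD k 0)).ev := by
  have : refOK j = true := by
    interval_cases j
    exacts [ref0, ref1, ref2, ref3]
  rw [refOK, V3.nf_eq] at this
  have := allN_spec this k hk
  rw [force_eq, andB_eq, Bool.and_eq_true, Nat.blt_eq, nthD_eq, nthD_eq] at this
  exact ⟨this.1, V3.refB_spec this.2⟩

theorem Good.refl {j : ℕ} (hj : j < 4) {r : V} (h : Good r) : Good (qrefl (tb j).ev r) := by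
  obtain ⟨i, hi, u, hu, rfl⟩ := h
  obtain ⟨h1, v, hv, e⟩ := ref_ok hj hi
  refine ⟨_, h1, u * v, mul_mem hu hv, ?_⟩
  rw [mul_smul, ← e, qrefl_eq, qrefl_eq, qip_smul, smul_sub, smul_smul, mul_smul_comm]

theorem half_h (a : ℍ[ℝ]) : (1 / 2 : ℝ) • (a * star icoH * icoH) = a := by
  rw [mul_assoc, h_mul', two_eq, mul_coe_eq_smul, smul_smul]; norm_num

theorem sw01 {x y z : ℍ[ℝ]} (h : Good ![y, x, z]) : Good ![x, y, z] := by
  convert h.refl (j := 1) (by norm_num) using 1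
  have : qip ![y, x, z] ![icoH, -icoH, 0] = (y - x) * star icoH := by
    simp [qip_eq, sub_eq_add_neg, add_mul]
  rw [tb1, qrefl_eq, this]
  funext t
  fin_cases t <;> simp [half_h, -one_div]

theorem sw12 {x y z : ℍ[ℝ]} (h : Good ![x, z, y]) : Good ![x, y, z] := by
  convert h.refl (j := 2) (by norm_num) using 1
  have : qip ![x, z, y] ![0, icoH, -icoH] = (z - y) * star icoH := by
    simp [qip_eq, sub_eq_add_neg, add_mul]
  rw [tb2, qrefl_eq, this]
  funext t
  fin_cases t <;> simp [half_h, -one_div]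

theorem normSq_sum {x y z : ℍ[ℝ]} (h : qip ![x, y, z] ![x, y, z] = 4) :
    normSq x + normSq y + normSq z = 4 := by
  simp only [qip_eq, Matrix.cons_val, self_mul_star] at h
  exact congrArg QuaternionAlgebra.re h

theorem swap_mem {x y z : ℍ[ℝ]} (h : ![x, y, z] ∈ Mn) : ![y, x, z] ∈ Mn ∧ ![x, z, y] ∈ Mn := by
  have := h.2
  simp only [qip_eq, Matrix.cons_val] at this
  refine ⟨⟨(swap_memL h.1).1, ?_⟩, (swap_memL h.1).2, ?_⟩ <;>
    simp only [qip_eq, Matrix.cons_val, ← this] <;> abel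

theorem nsum {X Y Z : Q8} (h : ![X.hv, Y.hv, Z.hv] ∈ Mn) :
    X.na + Y.na + Z.na = 16 ∧ X.nb + Y.nb + Z.nb = 0 := zt_inj (by
  push_cast
  linear_combination 4 * normSq_sum h.2 - normSq_hv X - normSq_hv Y - normSq_hv Z)

theorem unit_red {u : ℍ[ℝ]} (hu : u ∈ icosians) (n : normSq u = 1) {r : V} (hr : r ∈ Mn)
    (h : star u • r ∈ Mn → Good (star u • r)) : Good r := by
  have := (h ⟨smul_memL (star_mem hu) hr.1, by
    rw [qip_unit _ hr.2, normSq_star, n, mul_one]; rfl⟩).smul hu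
  rwa [smul_smul, self_mul_star, n, coe_one, one_smul] at this

theorem fnd_spec {v : V3} (h : fnd v = true) : Good v.ev := by
  obtain ⟨q, -, h⟩ := anyL_spec h
  simp only [andB_eq, Bool.and_eq_true, Nat.blt_eq] at h
  exact ⟨_, h.2.2.1, V3.simB_spec h.2.2.2⟩

theorem norm_one {X : Q8} (h1 : X.na = 4) (h2 : X.nb = 0) : normSq X.hv = 1 := by
  have := normSq_hv X
  rw [h1, h2] at this
  push_cast at this
  linarith

theorem good1 {x : ℍ[ℝ]} (h : ![x, 0, 0] ∈ Mn) : Good ![x, 0, 0] := by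
  obtain ⟨h1, ⟨a, ha, e1⟩, -, b, hb, e2⟩ := h.1
  simp only [Matrix.cons_val, sub_zero, add_zero] at e1 e2
  have e : x = (a + b + tau * x) * 2 := by
    have k : x * (icoH + star icoH) = b * 2 + a * 2 := by
      rw [mul_add]; nth_rw 1 [e2]; nth_rw 1 [e1]; rw [mul_assoc, mul_assoc, h_mul, h_mul']
    rw [h_add, mul_sub, mul_one, two_mul, mul_add, ← coe_commutes, sub_eq_iff_eq_add] at k
    nth_rw 1 [k]; noncomm_ring
  refine ⟨0, by norm_num, _, add_mem (add_mem ha hb) (mul_mem tau_mem (h1 0)), ?_⟩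
  rw [tb0]; funext t
  fin_cases t <;> simp [← e]

theorem good2 {x y : ℍ[ℝ]} (h : ![x, y, 0] ∈ Mn) : Good ![x, y, 0] := by
  obtain ⟨-, ⟨a, ha, e1⟩, ⟨b, hb, e2⟩, -⟩ := h.1
  simp only [Matrix.cons_val, sub_zero] at e1 e2
  obtain ⟨A, a1, a2⟩ := exists_of_mem (add_mem ha hb)
  obtain ⟨B, b1, rfl⟩ := exists_of_mem hb
  obtain rfl : x = A.hv * icoH := by rw [a2, add_mul, ← e1, ← e2, sub_add_cancel]
  subst e2
  have n := normSq_sum h.2
  have n2 : normSq icoH = 2 := by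
    have := h_mul
    rw [self_mul_star] at this
    exact congrArg QuaternionAlgebra.re this
  rw [map_mul, map_mul, n2, map_zero] at n
  have s : A.na + B.na = 8 ∧ A.nb + B.nb = 0 := zt_inj (by
    push_cast
    linear_combination 2 * n - normSq_hv A - normSq_hv B)
  have := A.na_nonneg
  have := B.na_nonneg
  have := a1.four
  have := b1.four
  obtain c | c | c : B.na = 0 ∨ A.na = 0 ∨ (A.na = 4 ∧ B.na = 4) := by omega
  · rw [hv_eq_zero c, zero_mul] at h ⊢; exact good1 h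
  · rw [hv_eq_zero c, zero_mul] at h ⊢; exact sw01 (good1 (swap_mem h).1)
  have := nb_four a1 c.1
  have := nb_four b1 c.2
  have u := norm_one c.2 (by omega)
  refine unit_red hb u h fun k => ?_
  obtain ⟨X, x1, x2⟩ := exists_of_mem (k.1.1 0)
  have e : star B.hv • ![A.hv * icoH, B.hv * icoH, 0] = V3.ev ⟨X, H, int 0⟩ := by
    funext t
    fin_cases t
    · exact x2.symm
    · simp [V3.ev, ← mul_assoc, star_mul_self, u, hv_H]
    · simp [V3.ev, hv_zero]
  rw [e] at k ⊢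
  have s1 := nsum (X := X) (Y := H) (Z := int 0) k
  have s2 : H.na = 8 ∧ H.nb = 0 ∧ (int 0).na = 0 ∧ (int 0).nb = 0 ∧ H.IsI ∧ (int 0).IsI := by
    decide
  have c1 := (V3.cong_iff (v := ⟨X, H, int 0⟩) x1 s2.2.2.2.2.1 s2.2.2.2.2.2).2 k.1
  have c2 := allQ_spec le_rfl pass_ok x1 (by push_cast; omega)
  have c3 := c1
  simp only [V3.cong, andB_eq, Bool.and_eq_true] at c3
  simp only [pass, c1, c3.2.1, andB_eq, Bool.and_eq_true, Bool.and_self, iteB_true,
    show X.nb = 0 by omega, decide_true, Bool.not_true, orB_eq, Bool.false_or] at c2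
  exact fnd_spec c2.2

theorem good3 {X Y Z : Q8} (hY : Y.IsI) (h : ![X.hv, Y.hv, Z.hv] ∈ Mn) (h1 : Y.na = 4)
    (h2 : Y.nb = 0) (h3 : Z.na = 4) : Good ![X.hv, Y.hv, Z.hv] := by
  have u := norm_one h1 h2
  refine unit_red hY.mem u h fun k => ?_
  obtain ⟨A, a1, a2⟩ := exists_of_mem (k.1.1 0)
  obtain ⟨C, b1, b2⟩ := exists_of_mem (k.1.1 2)
  have e : star Y.hv • ![X.hv, Y.hv, Z.hv] = V3.ev ⟨A, int 2, C⟩ := by
    funext t
    fin_cases t
    · exact a2.symm
    · simp [V3.ev, star_mul_self, u, hv_two]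
    · exact b2.symm
  have n : normSq C.hv = normSq Z.hv := by simp [b2, u]
  have s0 := (zt_inj (((normSq_hv C).symm.trans (congrArg _ n)).trans (normSq_hv Z))).1
  rw [e] at k ⊢
  have s1 := nsum (X := A) (Y := int 2) (Z := C) k
  have s2 : (int 2).na = 4 ∧ (int 2).nb = 0 ∧ (int 2).IsI := by decide
  have c1 := (V3.cong_iff (v := ⟨A, int 2, C⟩) a1 s2.2.2 b1).2 k.1
  have c2 := allQ_spec le_rfl pass_ok a1 (by push_cast; omega)
  have c3 := c1
  simp only [V3.cong, andB_eq, Bool.and_eq_true] at c3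
  have c4 := allQ_spec (by norm_num) z_ok b1 (by push_cast; omega)
  rw [c3.1, iteB_true] at c4
  obtain ⟨c, hc, c5⟩ := anyL_spec c4
  rw [pass, c3.2.1, andB_eq, Bool.and_eq_true, iteB_true] at c2
  have c6 := allL_spec c2.1 c hc
  rw [nf_eq, ← eqB_iff.1 c5, c1, decide_eq_true (show A.nb + C.nb = 0 by omega)] at c6
  exact fnd_spec c6

theorem good4 {X Y Z : Q8} (hY : Y.IsI) (hZ : Z.IsI) (h : ![X.hv, Y.hv, Z.hv] ∈ Mn)
    (h1 : Y.na = 4) (h3 : Z.na = 4) : Good ![X.hv, Y.hv, Z.hv] := by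
  rcases nb_four hY h1 with a | a
  · exact good3 hY h h1 a h3
  rcases nb_four hZ h3 with b | b
  · exact sw12 (good3 hZ (swap_mem h).2 h3 b h1)
  have s := nsum h
  have := normSq_hv X
  rw [show X.na = 8 by omega, show X.nb = -8 by omega] at this
  push_cast at this
  have k : 0 ≤ normSq X.hv := normSq_nonneg
  have k2 : 0 ≤ √5 := Real.sqrt_nonneg _
  nlinarith [s5, s5_eq]

theorem good_of_mem {r : V} (h : r ∈ Mn) : Good r := by
  obtain ⟨X, x1, x2⟩ := exists_of_mem (h.1.1 0)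
  obtain ⟨Y, y1, y2⟩ := exists_of_mem (h.1.1 1)
  obtain ⟨Z, z1, z2⟩ := exists_of_mem (h.1.1 2)
  obtain rfl : r = ![X.hv, Y.hv, Z.hv] := by
    funext t; fin_cases t <;> simp [x2, y2, z2]
  have s := nsum h
  have := X.na_nonneg
  have := Y.na_nonneg
  have := Z.na_nonneg
  have := x1.four
  have := y1.four
  have := z1.four
  obtain c | c | c | c | c | c : Z.na = 0 ∨ Y.na = 0 ∨ X.na = 0 ∨ (Y.na = 4 ∧ Z.na = 4) ∨
    (X.na = 4 ∧ Z.na = 4) ∨ (X.na = 4 ∧ Y.na = 4) := by omega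
  · rw [hv_eq_zero c] at h ⊢; exact good2 h
  · rw [hv_eq_zero c] at h ⊢; exact sw12 (good2 (swap_mem h).2)
  · rw [hv_eq_zero c] at h ⊢; exact sw01 (sw12 (good2 (swap_mem (swap_mem h).1).2))
  · exact good4 y1 z1 h c.1 c.2
  · exact sw01 (good4 x1 z1 (swap_mem h).1 c.1 c.2)
  · exact sw12 (sw01 (good4 x1 y1 (swap_mem (swap_mem h).2).1 c.1 c.2))

/-- the units -/
def Un : Set ℍ[ℝ] := {u | u ∈ icosians ∧ normSq u = 1}

theorem ncard_Un : Un.ncard = 120 := by
  classical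
  have e : Un = (unitL.map fun c => (Q8.dec c).hv).toFinset := by
    ext u
    simp only [List.coe_toFinset, List.mem_map, Set.mem_ofPred_eq]
    constructor
    · rintro ⟨h1, h2⟩
      obtain ⟨X, x1, rfl⟩ := exists_of_mem h1
      have s : X.na = 4 ∧ X.nb = 0 := zt_inj (by rw [← normSq_hv, h2]; norm_num)
      have := allQ_spec (by norm_num) u_ok x1 s.1
      rw [decide_eq_true s.2, iteB_true] at this
      obtain ⟨c, hc, e⟩ := anyL_spec this
      exact ⟨c, hc, by rw [eqB_iff.1 e]⟩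
    · rintro ⟨c, hc, rfl⟩
      have := allL_spec u_ok' c hc
      simp only [nf_eq, andB_eq, Bool.and_eq_true, isI_iff, decide_eq_true_eq] at this
      exact ⟨this.1.mem, norm_one this.2.1 this.2.2⟩
  rw [e, Set.ncard_coe_finset, List.toFinset_card_of_nodup, List.length_map]
  · rfl
  · refine List.pairwise_map.2 (u_ne.imp fun h e => ?_)
    rw [eqB_iff.2 (hv_inj e)] at h
    cases h

theorem center_cases {z : twoJ2} (hz : z ∈ Subgroup.center twoJ2) : z = 1 ∨ z = neg1 := by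
  have k : ∀ a c : Q8, V3.minB ⟨a, int 2, c⟩ = true → ![a.hv, 1, c.hv] ∈ Mn := fun a c h => by
    have := V3.minB_spec h
    rwa [V3.ev, hv_two] at this
  have k1 := k (Q8.dec ca) (int 2) (by decide +kernel)
  rw [hv_two] at k1
  refine center_eq hz k1 ?_ ?_ (b := (Q8.dec cb).hv) (c := (Q8.dec cc).hv)
  · convert k (Q8.dec cb) ⟨⟨0, 2, 0, 0⟩, ⟨0, 0, 0, 0⟩⟩ (by decide +kernel)
    ext <;> simp [hv, ev_eq]
  · convert k (Q8.dec cc) ⟨⟨0, 0, 2, 0⟩, ⟨0, 0, 0, 0⟩⟩ (by decide +kernel)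
    ext <;> simp [hv, ev_eq]

end Cfsg.Agent.Spor.Ico
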