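import Cfsg.Agent.Lib.Spor.J2A.Main
import Cfsg.Agent.Lib.Spor.J2U.Main
import Cfsg.Agent.Lib.Spor.J2C.Main
import Cfsg.Agent.Lib.Spor.Glue3

set_option autoImplicit false
set_option maxRecDepth 100000
set_option Elab.async false
set_option exponentiation.threshold 100000

namespace Cfsg.Agent.Spor.J2L
open Cfsg.Agent.PG Cfsg.Agent.Spor

def au_ws : List ℕ := [0x12022211f1a1c1f1a1c1a,
  0x1222022211e221d1f1a1d1e,
  0x124201e1c1f1a1c1a1c1a20,
  0x12022211e221f1c1f1a1c1a1c1f1a,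
  0x1242221221e221e1d1e1a1c1a1d24]

theorem au_ag_0 : allL ((agList 0 5 9)) (Ag J2A.A J2U.A 9 (ivl 0 315) 1 au_ws 0) = true := by decide +kernel

theorem au_ag : ∀ c ∈ agList 0 5 9, (Ag J2A.A J2U.A 9 (ivl 0 315) 1 au_ws 0) c = true :=
  (allL_spec au_ag_0)

theorem au_inv : invB J2U.A (kgens J2U.A 0) (ivl 0 315) = true := by decide +kernel

theorem au : ∀ j, 0 ≤ j → j < J2U.A.length → Acts (fun i => wp J2A.A 1 i) (bset (ivl 0 315))
    (wp J2A.A (nthD 1 au_ws (j - 0))) (gp J2U.A j) :=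
  acts_of_Ag J2A.hA J2U.hA (by norm_num) (by rw [J2U.hlen]; norm_num) au_inv (by rw [J2U.hlen]; exact au_ag)

def ac_ws : List ℕ := [0x11d,
  0x12422211e21221c1e1c,
  0x1242221221e1c,
  0x122,
  0x1242022211e1c1e1c,
  0x1241e221f,
  0x1202221,
  0x124]

theorem ac_ag_0 : allL ((agList 0 8 9)) (Ag J2A.A J2C.A 9 (ivl 0 315) 1 ac_ws 0) = true := by decide +kernel

theorem ac_ag : ∀ c ∈ agList 0 8 9, (Ag J2A.A J2C.A 9 (ivl 0 315) 1 ac_ws 0) c = true :=
  (allL_spec ac_ag_0)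

theorem ac_inv : invB J2C.A (kgens J2C.A 0) (ivl 0 315) = true := by decide +kernel

theorem ac : ∀ j, 0 ≤ j → j < J2C.A.length → Acts (fun i => wp J2A.A 1 i) (bset (ivl 0 315))
    (wp J2A.A (nthD 1 ac_ws (j - 0))) (gp J2C.A j) :=
  acts_of_Ag J2A.hA J2C.hA (by norm_num) (by rw [J2C.hlen]; norm_num) ac_inv (by rw [J2C.hlen]; exact ac_ag)

def fu_lv : List (ℕ × List (List ℕ) × ℕ × ℕ) := [(0, [[0x0212080408040a040a0004080c], [0x020e08080408040a0410000408040a040a0c]], 9, 315),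
  (1, [[0x021008080408040a04000408040008], [0x020c0c080408040808000408040a000a04]], 7, 80),
  (3, [[0x0210100c0c0a040a0408041200040804000808], [0x02120c08040a040804081200040804080412]], 5, 24)]

theorem fu_ok : lbB J2U.A 6 0 fu_lv [] = true := by decide +kernel

theorem fu : FixTriv (K J2U.A 0) (bset (ivl 0 315)) := by
  have := lb_fixTriv J2U.hA fu_ok (by rw [KS_nil, J2U.card0]; decide +kernel) (B := bset (ivl 0 315))
    (fun q hq => mem_bset_of_bit (allL_spec (p := fun q => bit (ivl 0 315) q.1) (by decide +kernel) q hq))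
  rwa [KS_nil] at this

def fc_lv : List (ℕ × List (List ℕ) × ℕ × ℕ) := [(1, [[0x021c100c0a0602], [0x021c18100a0600]], 8, 80),
  (2, [[0x0218100c08040802], [0x021c14100a0000]], 4, 8),
  (3, [[0x021c14100c06]], 3, 3)]

theorem fc_ok : lbB J2C.A 6 0 fc_lv [] = true := by decide +kernel

theorem fc : FixTriv (K J2C.A 0) (bset (ivl 0 315)) := by
  have := lb_fixTriv J2C.hA fc_ok (by rw [KS_nil, J2C.card0]; decide +kernel) (B := bset (ivl 0 315))
    (fun q hq => mem_bset_of_bit (allL_spec (p := fun q => bit (ivl 0 315) q.1) (by decide +kernel) q hq))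
  rwa [KS_nil] at this


end Cfsg.Agent.Spor.J2L
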