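import Cfsg.Agent.Lib.Spor.J2.Class
import Cfsg.Agent.Lib.Spor.J2.Link
import Cfsg.Agent.Lib.Spor.SUq
import Cfsg.Agent.Lib.Spor.Ext2

/-!
The Hall–Janko group as a permutation group on the reflections.
-/

set_option autoImplicit false
set_option maxRecDepth 100000

namespace Cfsg.Agent.Spor.Ico

open Quaternion Cfsg.Spor Cfsg.Agent.PG Subgroup Equiv

/-- the reflection group, with the action by conjugation -/
def Cj : Type := twoJ2

noncomputable instance instMulActionCj : MulAction twoJ2 Cj :=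
  MulAction.compHom twoJ2 (MulAut.conj : twoJ2 →* MulAut twoJ2)

/-- the listed reflections -/
noncomputable def xg (i : ℕ) : twoJ2 := rg ⟨_, tb_mem i⟩

/-- the listed reflections -/
noncomputable def X (i : ℕ) : Cj := xg i

/-- the indices -/
abbrev B : Set ℕ := bset (ivl 0 315)

theorem mem_B {i : ℕ} : i ∈ B ↔ i < 315 := by rw [mem_bset_ivl]; omega

theorem rg_eq {r s : Mn} {u : ℍ[ℝ]} (e : (r : V) = u • (s : V)) : rg r = rg s :=
  rg_congr (by rw [e, qrefl_smul (normSq_of s.2.2 (e ▸ r.2.2))])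

theorem exists_xg (r : Mn) : ∃ i ∈ B, rg r = xg i := by
  obtain ⟨i, hi, u, -, e⟩ := good_of_mem r.2
  exact ⟨i, mem_B.2 hi, rg_eq e⟩

theorem acts_gen {j : ℕ} (hj : j < 4) : Acts X B (xg j) (gp J2A.A j) := by
  have : allN 4 (fun j => imgsB J2A.A j 0 315 (nthD [] imgL j)) = true := by decide +kernel
  refine acts_of_imgs J2A.hA (allN_spec this j hj) fun k hk => ?_
  obtain ⟨-, u, -, e⟩ := ref_ok hj hk
  rw [nthD_eq]
  exact (conj_rg _ _).trans (rg_eq e)

theorem acts1 : ∀ σ ∈ K J2A.A 13, ∃ g : twoJ2, Acts X B g σ := by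
  rw [← J2A.gen_eq]
  refine acts_of_K' fun j _ hj => ?_
  have : j < 4 := hj
  rw [gp_take _ this]
  exact ⟨_, acts_gen this⟩

theorem trans : ∀ i ∈ B, ∃ σ ∈ K J2A.A 13, σ 0 = i := trans_of_cover J2A.hA (by decide) J2A.cov

theorem gp0 : gp J2A.A 0 ∈ K J2A.A 13 := by
  rw [← J2A.gen_eq, ← gp_take _ (show 0 < 4 by norm_num)]; exact gp_mem_K _ le_rfl

theorem xg_conj {i : ℕ} (hi : i ∈ B) : ∃ g : twoJ2, ∃ σ ∈ K J2A.A 13, Acts X B g σ ∧
    g * xg 0 * g⁻¹ = xg i := by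
  obtain ⟨σ, h, rfl⟩ := trans i hi
  obtain ⟨g, hg⟩ := acts1 σ h
  exact ⟨g, σ, h, hg, hg.2 0 (mem_B.2 (by norm_num))⟩

theorem closure_rg : closure (Set.range rg) = ⊤ := by
  refine Eq.trans (congrArg _ (Set.ext fun g => ?_)) (closure_preimage_eq_top _)
  exact ⟨fun ⟨r, e⟩ => (refl_iff _).2 ⟨r, e ▸ rfl⟩,
    fun h => ((refl_iff _).1 h).imp fun r e => Subtype.ext e.symm⟩

theorem acts2 : ∀ g : twoJ2, ∃ σ ∈ K J2A.A 13, Acts X B g σ := by
  refine acts_of_closure closure_rg ?_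
  rintro _ ⟨r, rfl⟩
  obtain ⟨i, hi, e⟩ := exists_xg r
  obtain ⟨g, σ, h1, h2, h3⟩ := xg_conj hi
  rw [e, ← h3]
  exact ⟨_, mul_mem (mul_mem h1 gp0) (inv_mem h1),
    (h2.mul (acts_gen (by norm_num))).mul h2.inv⟩

theorem line_xg {r s : Mn} (h : rg r = rg s) : ∃ c : ℍ[ℝ], (r : V) = c • (s : V) :=
  ⟨_, line_of r.2 (congrArg (fun g : twoJ2 => (g.1 ⟨_, r.2.1⟩ : V)) h).symm⟩

theorem inj : Set.InjOn X B :=
  injOn_of_max acts1 (mem_B.2 (by norm_num)) trans J2A.stab0.2.1 (K_mono _ (by norm_num)) J2A.max0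
    ⟨1, mem_B.2 (by norm_num), fun e => by
      obtain ⟨c, hc⟩ := line_xg e
      have h1 := congrFun hc 1
      have h2 := h_mul
      simp only [tb0, tb1, Matrix.cons_val, Pi.smul_apply, smul_zero, neg_eq_zero] at h1
      rw [h1, zero_mul] at h2
      exact two_ne_zero (congrArg QuaternionAlgebra.re h2).symm⟩

theorem fixT : FixTriv (K J2A.A 13) B := by
  apply J2A.fixTriv0 <;> exact mem_B.2 (by norm_num)

theorem exists_iso : ∃ e : J2 ≃* K J2A.A 13, ∀ g : twoJ2, Acts X B g (e g) := by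
  obtain ⟨φ, h1, h2⟩ := hom_of_acts' acts1 acts2 inj fixT
  have k : center twoJ2 = φ.ker := by
    ext g
    rw [MonoidHom.mem_ker]
    constructor
    · refine fun h => Subtype.ext (fixT _ (φ g).2 fun i hi => inj (((h2 g).1 i).2 hi) hi ?_)
      rw [← (h2 g).2 i hi]
      exact mul_inv_eq_iff_eq_mul.2 (mem_center_iff.1 h _).symm
    · intro h
      have : closure (Set.range rg) ≤ centralizer {g} := (closure_le _).2 (by
        rintro _ ⟨r, rfl⟩
        obtain ⟨i, hi, e⟩ := exists_xg r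
        have := (h2 g).2 i hi
        rw [h] at this
        rw [e]
        exact mem_centralizer_singleton_iff.2 (mul_inv_eq_iff_eq_mul.1 this).symm)
      exact mem_center_iff.2 fun x =>
        mem_centralizer_singleton_iff.1 (this (closure_rg ▸ mem_top x))
  exact ⟨(QuotientGroup.quotientMulEquivOfEq k).trans
    (QuotientGroup.quotientKerEquivOfSurjective φ h1), h2⟩

theorem card_J2 : Nat.card J2 = 604800 := by
  obtain ⟨e, -⟩ := exists_iso
  rw [Nat.card_congr e.toEquiv, J2A.card0]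

theorem card_center : Nat.card (center twoJ2) = 2 := by
  rw [← Set.ncard_pair neg1_ne.symm, ← Nat.card_coe_set_eq]
  refine Nat.card_congr (Equiv.subtypeEquivRight fun z => ⟨center_cases, ?_⟩)
  rintro (rfl | rfl)
  exacts [one_mem _, neg1_mem]

theorem simple_J2 : IsSimpleGroup J2 := by
  obtain ⟨e, -⟩ := exists_iso
  have := J2A.simple0
  exact e.isSimpleGroup

theorem ncard_refl : {f : Perm icoLeech | IsIcoReflection f}.ncard = 315 := by
  have : {f : Perm icoLeech | IsIcoReflection f} = (fun i => (xg i).1) '' Set.Iio 315 := by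
    ext f
    constructor
    · intro h
      obtain ⟨r, rfl⟩ := (refl_iff f).1 h
      obtain ⟨i, hi, e⟩ := exists_xg r
      exact ⟨i, mem_B.1 hi, (congrArg Subtype.val e).symm⟩
    · rintro ⟨i, -, rfl⟩
      exact (refl_iff _).2 ⟨_, rfl⟩
  rw [this, Set.InjOn.ncard_image, Set.ncard_Iio_nat]
  exact fun i hi j hj e => inj (mem_B.2 hi) (mem_B.2 hj) (Subtype.ext e)

theorem ncard_Mn : Mn.ncard = 37800 := by
  have : Mn = (fun p : ℕ × ℍ[ℝ] => p.2 • (tb p.1).ev) '' Set.Iio 315 ×ˢ Un := by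
    ext r
    constructor
    · intro h
      obtain ⟨i, hi, u, hu, e⟩ := good_of_mem h
      exact ⟨(i, u), ⟨hi, hu, normSq_of (tb_mem i).2 (e ▸ h.2)⟩, e.symm⟩
    · rintro ⟨⟨i, u⟩, ⟨-, hu, n⟩, rfl⟩
      exact ⟨smul_memL hu (tb_mem i).1, by rw [qip_unit _ (tb_mem i).2, n, mul_one]; rfl⟩
  rw [this, Set.InjOn.ncard_image, Set.ncard_prod, ncard_Un, Set.ncard_Iio_nat]
  rintro ⟨i, u⟩ h ⟨j, v⟩ h' e
  have m : u • (tb i).ev ∈ Mn := this ▸ ⟨_, h, rfl⟩
  obtain rfl : i = j := inj (mem_B.2 h.1) (mem_B.2 h'.1)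
    ((rg_eq (r := ⟨_, m⟩) rfl).symm.trans (rg_eq (r := ⟨_, m⟩) e))
  have k := congrArg (qip · (tb i).ev) e
  simp only [qip_smul, (tb_mem i).2, four_eq] at k
  rw [smul_right_injective _ (by norm_num) k]

theorem refl_conj {f f' : Perm icoLeech} (hf : IsIcoReflection f) (hf' : IsIcoReflection f') :
    ∃ g ∈ twoJ2, g * f * g⁻¹ = f' := by
  obtain ⟨r, rfl⟩ := (refl_iff f).1 hf
  obtain ⟨r', rfl⟩ := (refl_iff f').1 hf'
  obtain ⟨i, hi, e⟩ := exists_xg r
  obtain ⟨j, hj, e'⟩ := exists_xg r'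
  obtain ⟨g, -, -, -, a⟩ := xg_conj hi
  obtain ⟨g', -, -, -, a'⟩ := xg_conj hj
  have : g' * g⁻¹ * rg r * (g' * g⁻¹)⁻¹ = rg r' := by rw [e, e', ← a, ← a']; group
  exact ⟨_, (g' * g⁻¹).2, congrArg Subtype.val this⟩

theorem img_B : (fun i => wp J2A.A 1 i) '' B = B := by simp [wp_one]

theorem alt_hom : ∃ ψ : K J2C.A 0 →* alternatingGroup (Fin 5), Function.Surjective ψ ∧
    ψ.ker = (K J2C.A 3).subgroupOf _ := by
  have f1 : ∀ g : alternatingGroup (Fin 5), (∀ i ∈ bset (ivl 315 (315 + 5)),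
      g • Fin.ofNat 5 (i - 315) = Fin.ofNat 5 (i - 315)) → g = 1 := fun g h =>
    Subtype.ext (Equiv.ext fun a => by
      have : g • a = a := by simpa using h (315 + a) (mem_bset_ivl.2 (by omega))
      exact this)
  have k : allN 8 (fun j => andB (imgsB J2C.A j 315 5 (nthD ([], []) J2C.alt j).2)
    (andB (decide (Perm.sign ((nthD ([], []) J2C.alt j).1.map fun p => swap p.1 p.2).prod = 1))
      (allN 5 fun k => decide (((nthD ([], []) J2C.alt j).1.map fun p => swap p.1 p.2).prod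
        (Fin.ofNat 5 k) = Fin.ofNat 5 ((nthD ([], []) J2C.alt j).2.getD k 0))))) = true := by
    decide +kernel
  obtain ⟨φ, h1⟩ := hom_of_acts (Q := K J2C.A 0) (acts_of_K' fun j _ hj => by
    have := allN_spec k j hj
    simp only [andB_eq, Bool.and_eq_true, decide_eq_true_eq] at this
    exact ⟨⟨_, this.2.1⟩, acts_of_imgs J2C.hA this.1 fun k hk =>
      of_decide_eq_true (allN_spec this.2.2 k hk)⟩) f1
  have hk := ker_eq_of_fixIs h1 (injOn_shift (by decide)) (fun g _ => f1 g)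
    (FixIs.step J2C.stab0 (mem_bset_ivl.2 (by omega)) <|
      FixIs.step J2C.stab1 (mem_bset_ivl.2 (by omega)) <|
      FixIs.step J2C.stab2 (mem_bset_ivl.2 (by omega)) <| FixIs.refl _ _ _)
    (fixIvl_spec J2C.hA (by decide +kernel))
  have := finite_K J2C.hA 0
  refine ⟨φ, surj_of_card_ker _ ?_, hk⟩
  rw [hk, card_subgroupOf_K (by omega), J2C.card0, J2C.card3, nat_card_alternatingGroup]
  simp [Nat.factorial]

theorem es_C : ∃ z, Lib.PGroup.IsES 2 z ((K J2C.A 3).subgroupOf (K J2C.A 0)) := by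
  have := finite_K J2C.hA 0
  have h := J2C.es
  simp only [J2C.es_l, List.forall_mem_cons, Holds, pp_append, pp_nil] at h
  obtain ⟨h0, h1, h2, h3, h4, h5, h6, h7, h8, h9, h10, h11, h12, -⟩ := h
  let p : List ℕ → K J2C.A 0 := fun w => ⟨_, pp_mem_K_zero J2C.A w⟩
  exact ⟨_, es32 (z := p J2C.wz) (x := p J2C.wx) (y := p J2C.wy) (u := p J2C.wu) (v := p J2C.wv)
    (by rw [card_subgroupOf_K (by omega), J2C.card3]) (fun e => J2C.zne (congrArg Subtype.val e))
    (by refine ⟨?_, ?_, ?_, ?_, ?_⟩ <;> exact pp_mem (t := 3) (by decide +kernel))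
    (Subtype.ext h0) (Subtype.ext h1) (Subtype.ext h2) (Subtype.ext h3) (Subtype.ext h4)
    (Subtype.ext h5) (Subtype.ext h6) (Subtype.ext h7) (Subtype.ext h8) (Subtype.ext h9)
    (Subtype.ext h10) (Subtype.ext h11) (Subtype.ext h12)⟩

theorem cent_iso (r : Mn) : Nonempty (centralizer {(rg r : J2)} ≃* K J2C.A 0) := by
  obtain ⟨i, hi, e1⟩ := exists_xg r
  obtain ⟨g, -, -, -, a⟩ := xg_conj hi
  obtain ⟨e, he⟩ := exists_iso
  have := finite_K J2A.hA 14
  have := J2A.simple0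
  obtain ⟨f1⟩ := centralizer_equiv_of_isConj (a := (rg r : J2)) (b := xg 0)
    (isConj_iff.2 ⟨(g⁻¹ : twoJ2), by
      rw [e1, ← a, ← QuotientGroup.mk_inv, ← QuotientGroup.mk_mul, ← QuotientGroup.mk_mul]
      congr 1; group⟩)
  obtain ⟨f2⟩ := sub_iso_top (t0 := 14) J2L.ac (by decide +kernel) J2L.fc (by
    rw [img_B]; apply J2A.fixTriv1 <;> exact mem_B.2 (by norm_num)) (by rw [J2A.card1, J2C.card0])
  have k := centralizer_eq_of_coatom (d := e (xg 0)) (isCoatom_subgroupOf (K_mono _ (by norm_num))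
    (fun h => by have := J2A.card0; rw [← h, J2A.card1] at this; omega) J2A.max0) (fun s hs => by
      obtain ⟨s, rfl⟩ := e.surjective s
      obtain ⟨s, rfl⟩ := QuotientGroup.mk_surjective s
      have := (he s).2 0 (mem_B.2 (by norm_num))
      rw [J2A.stab0.2.1 _ (mem_subgroupOf.1 hs)] at this
      rw [← map_mul, ← map_mul, ← QuotientGroup.mk_mul, ← QuotientGroup.mk_mul,
        (mul_inv_eq_iff_eq_mul (a := s * xg 0) (b := s) (c := xg 0)).1 this]) (exists_not_comm_of_simple (fun h => by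
      have := Acts.unique_right inj fixT gp0 (e (xg 0)).2 (acts_gen (by norm_num)) (he _)
      rw [h] at this
      refine ne_one_of_not_mapsB J2A.hA (l := [gw 0]) (a := 3) (by decide +kernel) ?_
      rwa [pp_cons, pp_nil, mul_one, sp_gw _ (by norm_num)]) (by rw [J2A.card0]; norm_num))
  exact ⟨(((f1.trans (centCongr e _)).trans (MulEquiv.subgroupCongr k)).trans
    (subgroupOfEquivOfLe (K_mono _ (by norm_num)))).trans f2⟩

theorem cent_J2 (r : Mn) : ∃ (Q : Subgroup (centralizer {(rg r : J2)})) (_ : Q.Normal),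
    Nat.card Q = 32 ∧ IsExtraspecial 2 Q ∧
      Nonempty (centralizer {(rg r : J2)} ⧸ Q ≃* alternatingGroup (Fin 5)) := by
  obtain ⟨e⟩ := cent_iso r
  obtain ⟨ψ, h1, h2⟩ := alt_hom
  obtain ⟨z, hz⟩ := es_C
  obtain ⟨z, rfl⟩ := e.surjective z
  have := finite_K J2C.hA 0
  have := Finite.of_equiv _ e.symm.toEquiv
  have : Fact (Nat.Prime 2) := ⟨Nat.prime_two⟩
  have r1 : ψ.ker ≤ e.toMonoidHom.range := fun x _ => e.surjective x
  have c1 := card_comap_of_le e.injective r1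
  have e1 := isES_comap e.injective r1 (h2 ▸ hz)
  rw [h2, card_subgroupOf_K (by omega), J2C.card3, ← h2] at c1
  exact ⟨(ψ.comp e.toMonoidHom).ker, inferInstance, c1,
    e1.isExtraspecial fun k => absurd (e1.eq_zpowers_iff.1 k) (by rw [c1]; norm_num),
    ⟨QuotientGroup.quotientKerEquivOfSurjective _ (h1.comp e.surjective)⟩⟩

theorem psu33 {F : Type*} [Field F] [Fintype F] (hF : Fintype.card F = 3 ^ 2) :
    Nonempty (PSU 3 F 3 ≃* K J2U.A 1) := by
  obtain ⟨ρ, h1, h2⟩ := exists_qa (a := 2) Nat.prime_three hF (by norm_num) (by decide)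
    (by decide +kernel)
  have := finite_K J2U.hA 1
  have := J2U.simple1
  have a := acts_su (n := 3) hF h2 (el := qel 3 2) (V := J2U.V) J2U.hA (t := 1) (lo := 352)
    (m := 63) (D := J2U.D) (by decide +kernel) rfl
  refine psu_iso hF h1 h2 (by norm_num) (by rw [J2U.card1]; norm_num) a
    (injOn_of_max a (mem_bset_ivl.2 (by omega)) (trans_of_cover J2U.hA (by decide) J2U.cov)
      J2U.stab1.2.1 (K_mono _ (by norm_num)) J2U.max1
      ⟨J2U.ne, mem_bset_ivl.2 (by decide), lnR_ne (by decide +kernel)⟩)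
    (by apply J2U.fixTriv1 <;> exact mem_bset_ivl.2 (by omega)) (u := ⟨0, 1⟩) (w := 1)
    (by decide) (by simp) (one_pow _) ?_
  rw [J2U.card1, orderOf_one, (orderOf_eq_iff (n := 4) (by norm_num)).2 (by decide +kernel)]
  decide +kernel

theorem rank3 : ∃ H : Subgroup J2, H.index = 100 ∧ (∃ (F : Type) (_ : Field F) (_ : Fintype F),
    Fintype.card F = 9 ∧ Nonempty (H ≃* PSU 3 F 3)) ∧ ∃ c₁ c₂ : J2 ⧸ H,
      (MulAction.orbit H c₁).ncard = 36 ∧ (MulAction.orbit H c₂).ncard = 63 := by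
  obtain ⟨e0, -⟩ := exists_iso
  have := finite_K J2A.hA 13
  have := finite_K J2U.hA 0
  have : Fact (Nat.Prime 3) := ⟨Nat.prime_three⟩
  obtain ⟨f⟩ := sub_iso_top (t0 := 13) J2L.au (by decide +kernel) J2L.fu (img_B.symm ▸ fixT)
    (by rw [J2A.card0, J2U.card0])
  let e := e0.trans f
  let _ := Fintype.ofFinite (GaloisField 3 2)
  have hF : Fintype.card (GaloisField 3 2) = 3 ^ 2 := by
    rw [← Nat.card_eq_fintype_card, GaloisField.card 3 2 (by norm_num)]
  obtain ⟨g⟩ := psu33 hF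
  obtain ⟨c₁, h1⟩ := ncard_orbit_quot J2U.stab0 e J2U.m316
  obtain ⟨c₂, h2⟩ := ncard_orbit_quot J2U.stab0 e J2U.m352
  refine ⟨_, ?_, ⟨GaloisField 3 2, inferInstance, inferInstance, hF, ⟨?_⟩⟩, c₁, c₂, h1.trans (orbCardB_spec J2U.hA J2U.o316),
    h2.trans (orbCardB_spec J2U.hA J2U.o352)⟩
  · rw [index_comap_of_surjective _ e.surjective]
    exact index_of_card ((card_subgroupOf_K (by omega)).trans J2U.card1) J2U.card0
  · rw [comap_equiv_eq_map_symm]
    exact ((e.symm.subgroupMap _).symm.trans (subgroupOfEquivOfLe (K_mono _ (by omega)))).trans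
      g.symm

end Cfsg.Agent.Spor.Ico
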