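import Cfsg.Agent.Lib.Spor.J2.Refl
import Cfsg.Agent.Lib.PG.Net

/-!
An integral model of the icosians.
-/

set_option autoImplicit false

namespace Cfsg.Agent.Spor.Ico

open Quaternion Cfsg.Spor Cfsg.Agent.PG

/-- evaluate an integer -/
noncomputable def fz {β : Type} (x : ℤ) (k : ℤ → β) : β :=
  Int.rec (fun n => force n fun n => k (Int.ofNat n)) (fun n => force n fun n => k (Int.negSucc n)) x

@[simp] theorem fz_eq {β : Type} (x : ℤ) (k : ℤ → β) : fz x k = k x := by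
  cases x with
  | ofNat n => exact force_eq n fun n => k (Int.ofNat n)
  | negSucc n => exact force_eq n fun n => k (Int.negSucc n)

/-- integral quaternions -/
@[ext] structure Z4 : Type where
  /-- real part -/
  a : ℤ
  /-- coordinate of `i` -/
  b : ℤ
  /-- coordinate of `j` -/
  c : ℤ
  /-- coordinate of `k` -/
  d : ℤ

namespace Z4

/-- evaluate -/
noncomputable def nf {β : Type} (x : Z4) (k : Z4 → β) : β :=
  fz x.a fun a => fz x.b fun b => fz x.c fun c => fz x.d fun d => k ⟨a, b, c, d⟩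

@[simp] theorem nf_eq {β : Type} (x : Z4) (k : Z4 → β) : nf x k = k x := by simp [nf]

/-- sum -/
def add (x y : Z4) : Z4 := ⟨x.a.add y.a, x.b.add y.b, x.c.add y.c, x.d.add y.d⟩

/-- difference -/
def sub (x y : Z4) : Z4 := ⟨x.a.sub y.a, x.b.sub y.b, x.c.sub y.c, x.d.sub y.d⟩

/-- product -/
def mul (x y : Z4) : Z4 :=
  ⟨(((x.a.mul y.a).sub (x.b.mul y.b)).sub (x.c.mul y.c)).sub (x.d.mul y.d),
    (((x.a.mul y.b).add (x.b.mul y.a)).add (x.c.mul y.d)).sub (x.d.mul y.c),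
    (((x.a.mul y.c).sub (x.b.mul y.d)).add (x.c.mul y.a)).add (x.d.mul y.b),
    (((x.a.mul y.d).add (x.b.mul y.c)).sub (x.c.mul y.b)).add (x.d.mul y.a)⟩

/-- conjugate -/
def star (x : Z4) : Z4 := ⟨x.a, x.b.neg, x.c.neg, x.d.neg⟩

/-- multiple -/
def sm (k : ℤ) (x : Z4) : Z4 := ⟨k.mul x.a, k.mul x.b, k.mul x.c, k.mul x.d⟩

/-- quotient -/
def dv (k : ℤ) (x : Z4) : Z4 := ⟨x.a.ediv k, x.b.ediv k, x.c.ediv k, x.d.ediv k⟩

/-- equality test -/
noncomputable def eqB (x y : Z4) : Bool :=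
  andB (decide (x.a = y.a)) <| andB (decide (x.b = y.b)) <| andB (decide (x.c = y.c))
    (decide (x.d = y.d))

theorem eqB_iff {x y : Z4} : eqB x y = true ↔ x = y := by simp [eqB, Z4.ext_iff]

/-- decode -/
def dec (n : ℕ) : Z4 :=
  ⟨Int.subNatNat (Nat.land n 15) 8, Int.subNatNat (Nat.land (Nat.shiftRight n 4) 15) 8,
    Int.subNatNat (Nat.land (Nat.shiftRight n 8) 15) 8,
    Int.subNatNat (Nat.land (Nat.shiftRight n 12) 15) 8⟩

/-- value -/
def ev (x : Z4) : ℍ[ℝ] := mq x.a x.b x.c x.d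

theorem neg_def (a : ℤ) : a.neg = -a := rfl

theorem sub_def (a b : ℤ) : a.sub b = a - b := rfl

theorem ev_add (x y : Z4) : (add x y).ev = x.ev + y.ev := by ext <;> simp [add, ev]

theorem ev_sub (x y : Z4) : (sub x y).ev = x.ev - y.ev := by ext <;> simp [sub, ev, sub_def]

theorem ev_mul (x y : Z4) : (mul x y).ev = x.ev * y.ev := by ext <;> simp [mul, ev, sub_def]

theorem ev_star (x : Z4) : (star x).ev = Star.star x.ev := by ext <;> simp [star, ev, neg_def]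

theorem ev_sm (k : ℤ) (x : Z4) : (sm k x).ev = (k : ℝ) • x.ev := by ext <;> simp [sm, ev]

theorem dv_sm {k : ℤ} (hk : k ≠ 0) (x : Z4) : dv k (sm k x) = x := by
  ext <;> exact Int.mul_ediv_cancel_left _ hk

end Z4

/-- quaternions over the golden integers -/
@[ext] structure Q8 : Type where
  /-- rational part -/
  p : Z4
  /-- coefficient of `τ` -/
  q : Z4

theorem zt_inj {a b a' b' : ℤ} (h : (a : ℝ) + tau * b = a' + tau * b') : a = a' ∧ b = b' := by
  have hb : b = b' := by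
    by_contra hb
    have h1 : ((b - b' : ℤ) : ℝ) ≠ 0 := by exact_mod_cast sub_ne_zero.2 hb
    refine (show Nat.Prime 5 by norm_num).irrational_sqrt
      ⟨(2 * (a' - a) - (b - b') : ℤ) / (b - b' : ℤ), ?_⟩
    rw [Rat.cast_div, Rat.cast_intCast, Rat.cast_intCast, div_eq_iff h1]
    push_cast
    rw [s5_eq]; linarith
  subst hb
  exact ⟨by exact_mod_cast add_right_cancel h, rfl⟩

namespace Q8

/-- evaluate -/
noncomputable def nf {β : Type} (x : Q8) (k : Q8 → β) : β :=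
  x.p.nf fun p => x.q.nf fun q => k ⟨p, q⟩

@[simp] theorem nf_eq {β : Type} (x : Q8) (k : Q8 → β) : nf x k = k x := by simp [nf]

/-- sum -/
def add (x y : Q8) : Q8 := ⟨x.p.add y.p, x.q.add y.q⟩

/-- difference -/
def sub (x y : Q8) : Q8 := ⟨x.p.sub y.p, x.q.sub y.q⟩

/-- product -/
noncomputable def mul (x y : Q8) : Q8 :=
  (x.p.mul y.p).nf fun u => (x.p.add x.q).nf fun s => (y.p.add y.q).nf fun t =>
    nf ⟨u.add (x.q.mul y.q), (s.mul t).sub u⟩ fun z => z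

/-- conjugate -/
def star (x : Q8) : Q8 := ⟨x.p.star, x.q.star⟩

/-- multiple -/
def sm (k : ℤ) (x : Q8) : Q8 := ⟨x.p.sm k, x.q.sm k⟩

/-- quotient -/
def dv (k : ℤ) (x : Q8) : Q8 := ⟨x.p.dv k, x.q.dv k⟩

/-- equality test -/
noncomputable def eqB (x y : Q8) : Bool := andB (x.p.eqB y.p) (x.q.eqB y.q)

theorem eqB_iff {x y : Q8} : eqB x y = true ↔ x = y := by simp [eqB, Z4.eqB_iff, Q8.ext_iff]

/-- decode -/
def dec (n : ℕ) : Q8 := ⟨Z4.dec n, Z4.dec (Nat.shiftRight n 16)⟩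

/-- an integer -/
def int (k : ℤ) : Q8 := ⟨⟨k, 0, 0, 0⟩, ⟨0, 0, 0, 0⟩⟩

/-- value -/
noncomputable def ev (x : Q8) : ℍ[ℝ] := x.p.ev + tau • x.q.ev

theorem ev_add (x y : Q8) : (add x y).ev = x.ev + y.ev := by
  simp only [add, ev, Z4.ev_add]; module

theorem ev_sub (x y : Q8) : (sub x y).ev = x.ev - y.ev := by
  simp only [sub, ev, Z4.ev_sub]; module

theorem ev_mul (x y : Q8) : (mul x y).ev = x.ev * y.ev := by
  simp only [mul, Z4.nf_eq, nf_eq, ev, Z4.ev_add, Z4.ev_sub, Z4.ev_mul, add_mul, mul_add,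
    smul_mul_assoc, mul_smul_comm, smul_add, smul_smul, tau_sq]
  module

theorem ev_star (x : Q8) : (star x).ev = Star.star x.ev := by
  simp only [star, ev, Z4.ev_star, star_add, Quaternion.star_smul]

theorem ev_sm (k : ℤ) (x : Q8) : (sm k x).ev = (k : ℝ) • x.ev := by
  simp only [sm, ev, Z4.ev_sm]; module

theorem ev_int (k : ℤ) : (int k).ev = ((k : ℝ) : ℍ[ℝ]) := by ext <;> simp [int, ev, Z4.ev]

theorem dv_sm {k : ℤ} (hk : k ≠ 0) (x : Q8) : dv k (sm k x) = x := by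
  simp [dv, sm, Z4.dv_sm hk]

theorem ev_eq (x : Q8) : x.ev = mq (x.p.a + tau * x.q.a) (x.p.b + tau * x.q.b)
    (x.p.c + tau * x.q.c) (x.p.d + tau * x.q.d) := by ext <;> simp [ev, Z4.ev]

theorem ev_inj {x y : Q8} (h : x.ev = y.ev) : x = y := by
  rw [ev_eq, ev_eq] at h
  have a := zt_inj (congrArg QuaternionAlgebra.re h)
  have b := zt_inj (congrArg QuaternionAlgebra.imI h)
  have c := zt_inj (congrArg QuaternionAlgebra.imJ h)
  have d := zt_inj (congrArg QuaternionAlgebra.imK h)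
  ext <;> simp [a, b, c, d]

/-- half the value -/
noncomputable def hv (x : Q8) : ℍ[ℝ] := (1 / 2 : ℝ) • x.ev

/-- half the value is an icosian -/
def IsI (x : Q8) : Prop :=
  (x.p.a + x.p.d + x.q.d + x.q.c) % 2 = 0 ∧ (x.q.a + x.p.d + x.q.c + x.p.c) % 2 = 0 ∧
    (x.p.b + x.q.d + x.p.c + x.q.c) % 2 = 0 ∧ (x.q.b + x.q.d + x.p.d + x.p.c) % 2 = 0

instance decIsI (x : Q8) : Decidable x.IsI := by unfold IsI; infer_instance

/-- the sum of four integers is even -/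
def ev4 (a b c d : ℤ) : Bool :=
  Nat.beq (Nat.mod (Nat.add (Nat.add a.natAbs b.natAbs) (Nat.add c.natAbs d.natAbs)) 2) 0

theorem ev4_iff (a b c d : ℤ) : ev4 a b c d = true ↔ (a + b + c + d) % 2 = 0 := by
  rw [ev4, Nat.beq_eq]
  show (a.natAbs + b.natAbs + (c.natAbs + d.natAbs)) % 2 = 0 ↔ _
  omega

/-- test for icosians -/
noncomputable def isI (x : Q8) : Bool :=
  andB (ev4 x.p.a x.p.d x.q.d x.q.c) <| andB (ev4 x.q.a x.p.d x.q.c x.p.c) <|
    andB (ev4 x.p.b x.q.d x.p.c x.q.c) (ev4 x.q.b x.q.d x.p.d x.p.c)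

theorem isI_iff {x : Q8} : x.isI = true ↔ x.IsI := by simp [isI, IsI, ev4_iff]

theorem IsI.mem {x : Q8} (h : x.IsI) : x.hv ∈ icosians := by
  obtain ⟨h1, h2, h3, h4⟩ := h
  obtain ⟨a, ha⟩ : ∃ a, x.p.a = 2 * a - (x.p.d - x.q.d + 2 * x.p.c - x.q.c) :=
    ⟨(x.p.a + (x.p.d - x.q.d + 2 * x.p.c - x.q.c)) / 2, by omega⟩
  obtain ⟨b, hb⟩ : ∃ b, x.q.a = 2 * b - (x.q.c - x.p.d - x.p.c) :=
    ⟨(x.q.a + (x.q.c - x.p.d - x.p.c)) / 2, by omega⟩
  obtain ⟨c, hc⟩ : ∃ c, x.p.b = 2 * c - (2 * x.p.d - x.q.d - x.p.c + x.q.c) :=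
    ⟨(x.p.b + (2 * x.p.d - x.q.d - x.p.c + x.q.c)) / 2, by omega⟩
  obtain ⟨d, hd⟩ : ∃ d, x.q.b = 2 * d - (x.q.d - x.p.d + x.p.c) :=
    ⟨(x.q.b + (x.q.d - x.p.d + x.p.c)) / 2, by omega⟩
  have k : ∀ a b : ℤ, (((a : ℝ) + tau * b : ℝ) : ℍ[ℝ]) ∈ icosians := fun a b => by
    rw [coe_add, coe_mul, coe_intCast, coe_intCast]
    exact add_mem (intCast_mem _ _) (mul_mem tau_mem (intCast_mem _ _))
  have : x.hv = ((a : ℝ) + tau * b : ℝ) + ((c : ℝ) + tau * d : ℝ) * qI +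
      (((x.q.d - x.p.d : ℤ) : ℝ) + tau * x.p.d : ℝ) * qG +
      (((x.p.c - x.q.c : ℤ) : ℝ) + tau * (-x.p.c : ℤ) : ℝ) * (qI * qG) := by
    rw [hv, ev_eq, ha, hb, hc, hd]
    ext <;> simp [qI_eq, qG_eq, sig_eq]
    · linear_combination ((x.p.c : ℝ) / 2) * tau_sq
    · linear_combination (((x.p.d : ℝ)) / 2) * tau_sq
    · linear_combination (-(x.p.c : ℝ) / 2) * tau_sq
    · linear_combination (-(x.p.d : ℝ) / 2) * tau_sq
  rw [this]
  exact add_mem (add_mem (add_mem (k _ _) (mul_mem (k _ _) qI_mem)) (mul_mem (k _ _) qG_mem))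
    (mul_mem (k _ _) (mul_mem qI_mem qG_mem))

theorem hv_add (x y : Q8) : (add x y).hv = x.hv + y.hv := by rw [hv, ev_add, smul_add]; rfl

theorem hv_sub (x y : Q8) : (sub x y).hv = x.hv - y.hv := by rw [hv, ev_sub, smul_sub]; rfl

theorem hv_inj {x y : Q8} (h : x.hv = y.hv) : x = y :=
  ev_inj (smul_right_injective _ (by norm_num) h)

theorem hv_zero : (int 0).hv = 0 := by ext <;> simp [hv, ev_int]

theorem hv_two : (int 2).hv = 1 := by ext <;> simp [hv, ev_int]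

theorem hv_four : (int 4).hv = 2 := by ext <;> simp [hv, ev_int, two_eq]; norm_num

theorem exists_of_mem {x : ℍ[ℝ]} (hx : x ∈ icosians) : ∃ X : Q8, X.IsI ∧ X.hv = x := by
  have : ∀ Y : Q8, Y.IsI → ∃ X : Q8, X.IsI ∧ X.hv = x * Y.hv := by
    induction hx using Subring.closure_induction with
    | mem x hx =>
      rintro ⟨⟨a, b, c, d⟩, ⟨a', b', c', d'⟩⟩ ⟨h1, h2, h3, h4⟩
      dsimp only at h1 h2 h3 h4
      rcases hx with rfl | rfl
      · refine ⟨⟨⟨-b, a, -d, c⟩, ⟨-b', a', -d', c'⟩⟩, ?_, ?_⟩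
        · unfold IsI; dsimp only; omega
        · rw [hv, hv, ev_eq, ev_eq, qI_eq]; ext <;> simp <;> ring
      · obtain ⟨e, rfl⟩ : ∃ e, a = 2 * e - d - d' - c' := ⟨(a + d + d' + c') / 2, by omega⟩
        obtain ⟨e', rfl⟩ : ∃ e, a' = 2 * e - d - c' - c := ⟨(a' + d + c' + c) / 2, by omega⟩
        obtain ⟨f, rfl⟩ : ∃ e, b = 2 * e - d' - c - c' := ⟨(b + d' + c + c') / 2, by omega⟩
        obtain ⟨f', rfl⟩ : ∃ e, b' = 2 * e - d' - d - c := ⟨(b' + d' + d + c) / 2, by omega⟩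
        refine ⟨⟨⟨e - f + f' - d - d', e - e' + f - d' - c', f' - d, e' - c'⟩,
          ⟨e' + f - d - c - d' - c', f' - e - c, f + f' - c - d', e + e' - d - c - c'⟩⟩, ?_, ?_⟩
        · unfold IsI; dsimp only; omega
        · show _ = qG * _
          rw [hv, hv, ev_eq, ev_eq, qG_eq, sig_eq]; ext <;> simp
          · linear_combination (-(f' - c / 2 - d / 2 - d' : ℝ)) * tau_sq
          · linear_combination (e' - c / 2 - d / 2 : ℝ) * tau_sq
          · linear_combination (-(f' - c / 2 - d / 2 : ℝ)) * tau_sq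
          · linear_combination (-(e' - c / 2 - c' - d / 2 : ℝ)) * tau_sq
    | zero => exact fun _ _ => ⟨int 0, by decide, by simp [hv_zero]⟩
    | one => exact fun Y hY => ⟨Y, hY, (one_mul _).symm⟩
    | add x y _ _ h1 h2 =>
      intro Y hY
      obtain ⟨A, a1, a2⟩ := h1 Y hY
      obtain ⟨B, b1, b2⟩ := h2 Y hY
      refine ⟨A.add B, ?_, by rw [hv_add, a2, b2, add_mul]⟩
      unfold IsI at *
      simp only [add, Z4.add, Int.add_def]; omega
    | neg x _ h =>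
      intro Y hY
      obtain ⟨A, a1, a2⟩ := h Y hY
      refine ⟨(int 0).sub A, ?_, by simp [hv_sub, a2, hv_zero]⟩
      unfold IsI at *
      simp only [sub, Z4.sub, Z4.sub_def, int]; omega
    | mul x y _ _ h1 h2 =>
      intro Y hY
      obtain ⟨B, b1, b2⟩ := h2 Y hY
      obtain ⟨A, a1, a2⟩ := h1 B b1
      exact ⟨A, a1, by rw [a2, b2, mul_assoc]⟩
  simpa [hv_two] using this (int 2) (by decide)

/-- the value divided by `2 * k` is an icosian -/
noncomputable def inI (k : ℤ) (x : Q8) : Bool :=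
  x.nf fun x => (x.dv k).nf fun a => andB a.isI ((a.sm k).eqB x)

theorem inI_iff {k : ℤ} (hk : k ≠ 0) {x : Q8} :
    inI k x = true ↔ (1 / (2 * k) : ℝ) • x.ev ∈ icosians := by
  have hk' : (k : ℝ) ≠ 0 := by exact_mod_cast hk
  simp only [inI, nf_eq, andB_eq, Bool.and_eq_true, isI_iff, eqB_iff]
  constructor
  · rintro ⟨h1, h2⟩
    have := h1.mem
    rwa [← h2, ev_sm, smul_smul, show (1 / (2 * k) * k : ℝ) = 1 / 2 by field_simp]
  · intro h
    obtain ⟨A, h1, h2⟩ := exists_of_mem h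
    obtain rfl : x = A.sm k := ev_inj (by
      have := congrArg ((2 * k : ℝ) • ·) h2
      simp only [hv, smul_smul] at this
      rw [show (2 * k * (1 / (2 * k)) : ℝ) = 1 by field_simp,
        show (2 * k * (1 / 2) : ℝ) = k by ring, one_smul] at this
      rw [ev_sm, this])
    rw [dv_sm hk]; exact ⟨h1, rfl⟩

/-- twice `h` -/
def H : Q8 := ⟨⟨1, 1, 1, 1⟩, ⟨-2, 0, 0, 0⟩⟩

theorem hv_H : H.hv = icoH := by
  rw [hv, ev_eq, icoH_eq, s5_eq]; ext <;> simp [H]; ring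

theorem hv_star (x : Q8) : x.star.hv = Star.star x.hv := by
  rw [hv, hv, ev_star, Quaternion.star_smul]

theorem li_iff {q q' : ℍ[ℝ]} (h : q * q' = 2) (h' : q' * q = 2) {Q : Q8} (hQ : Q.hv = q') {x : Q8} :
    inI 4 (x.mul Q) = true ↔ x.hv ∈ leftIdeal q := by
  have e : (1 / (2 * (4 : ℤ)) : ℝ) • (x.mul Q).ev = (1 / 2 : ℝ) • (x.hv * q') := by
    rw [← hQ, ev_mul, hv, hv, smul_mul_assoc, mul_smul_comm, smul_smul, smul_smul]; norm_num
  rw [inI_iff (by norm_num), e]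
  constructor
  · intro h1
    refine ⟨_, h1, ?_⟩
    rw [smul_mul_assoc, mul_assoc, h', two_eq, mul_coe_eq_smul, smul_smul]; norm_num
  · rintro ⟨a, ha, e⟩
    rw [e, mul_assoc, h, two_eq, mul_coe_eq_smul, smul_smul]; simpa using ha

/-- the rational part of four times the norm -/
def na (x : Q8) : ℤ := ([x.p.a, x.p.b, x.p.c, x.p.d, x.q.a, x.q.b, x.q.c, x.q.d].map
  fun v => v * v).sum

/-- the irrational part of four times the norm -/
def nb (x : Q8) : ℤ := (2 * x.p.a + x.q.a) * x.q.a + (2 * x.p.b + x.q.b) * x.q.b +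
  (2 * x.p.c + x.q.c) * x.q.c + (2 * x.p.d + x.q.d) * x.q.d

theorem normSq_hv (x : Q8) : 4 * normSq x.hv = x.na + tau * x.nb := by
  rw [hv, ev_eq, normSq_def']
  simp [na, nb]
  linear_combination ((x.q.a : ℝ) ^ 2 + x.q.b ^ 2 + x.q.c ^ 2 + x.q.d ^ 2) * tau_sq

theorem na_nonneg (x : Q8) : 0 ≤ x.na := List.sum_nonneg fun v hv => by
  obtain ⟨w, -, rfl⟩ := List.mem_map.1 hv
  exact mul_self_nonneg w

theorem hv_eq_zero {x : Q8} (h : x.na = 0) : x.hv = 0 := by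
  obtain rfl : x = int 0 := by
    simp only [na, List.map, List.sum_cons, List.sum_nil] at h
    ext <;> simp only [int] <;> nlinarith [mul_self_nonneg x.p.a, mul_self_nonneg x.p.b,
      mul_self_nonneg x.p.c, mul_self_nonneg x.p.d, mul_self_nonneg x.q.a, mul_self_nonneg x.q.b,
      mul_self_nonneg x.q.c, mul_self_nonneg x.q.d]
  exact hv_zero

theorem IsI.four {x : Q8} (h : x.IsI) : x.na % 4 = 0 := by
  obtain ⟨⟨a, b, c, d⟩, ⟨a', b', c', d'⟩⟩ := x
  obtain ⟨h1, h2, h3, h4⟩ := h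
  dsimp only at h1 h2 h3 h4
  obtain ⟨e, rfl⟩ : ∃ e, a = 2 * e - d - d' - c' := ⟨(a + d + d' + c') / 2, by omega⟩
  obtain ⟨e', rfl⟩ : ∃ e, a' = 2 * e - d - c' - c := ⟨(a' + d + c' + c) / 2, by omega⟩
  obtain ⟨f, rfl⟩ : ∃ e, b = 2 * e - d' - c - c' := ⟨(b + d' + c + c') / 2, by omega⟩
  obtain ⟨f', rfl⟩ : ∃ e, b' = 2 * e - d' - d - c := ⟨(b' + d' + d + c) / 2, by omega⟩
  simp only [na, List.map, List.sum_cons, List.sum_nil]
  ring_nf
  omega

end Q8

/-- test all integer vectors with a given sum of squares -/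
noncomputable def allSq (n : ℕ) : ℕ → (List ℤ → Bool) → Bool :=
  Nat.rec (motive := fun _ => ℕ → (List ℤ → Bool) → Bool)
    (fun s f => orB (Nat.blt 0 s) (f []))
    (fun _ ih s f => allL [((0 : ℤ), 0), (1, 1), (Int.negSucc 0, 1), (2, 4), (Int.negSucc 1, 4)]
      fun v => orB (Nat.blt s v.2) (force (Nat.sub s v.2) fun s => ih s fun l => f (v.1 :: l))) n

theorem allSq_spec {n s : ℕ} (hs : s ≤ 8) {f : List ℤ → Bool} (h : allSq n s f = true)
    {l : List ℤ} (hl : l.length = n) (e : (l.map fun v => v * v).sum = s) : f l = true := by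
  induction n generalizing s f l with
  | zero =>
    obtain rfl := List.length_eq_zero_iff.1 hl
    obtain rfl : s = 0 := by simpa using e.symm
    exact h
  | succ n ih =>
    obtain ⟨v, l, rfl⟩ := List.exists_cons_of_length_eq_add_one hl
    have h0 : 0 ≤ (l.map fun v => v * v).sum := List.sum_nonneg fun v hv => by
      obtain ⟨w, -, rfl⟩ := List.mem_map.1 hv
      exact mul_self_nonneg w
    rw [List.map_cons, List.sum_cons] at e
    have k : ∀ m : ℕ, v * v = m → (v, m) ∈ [((0 : ℤ), 0), (1, 1), (Int.negSucc 0, 1), (2, 4),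
        (Int.negSucc 1, 4)] → f (v :: l) = true := fun m a b => by
      have := allL_spec (l := [((0 : ℤ), 0), (1, 1), (Int.negSucc 0, 1), (2, 4), (Int.negSucc 1, 4)])
        (p := fun v : ℤ × ℕ => orB (Nat.blt s v.2)
        (force (Nat.sub s v.2) fun s => allSq n s fun l => f (v.1 :: l))) h _ b
      simp only [orB_eq, force_eq, Bool.or_eq_true, Nat.blt_eq] at this
      rcases this with c | c
      · omega
      · exact ih ((Nat.sub_le _ _).trans hs) c (by simpa using hl) (by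
          show _ = ((s - m : ℕ) : ℤ); omega)
    have h1 : -3 < v := by nlinarith
    have h2 : v < 3 := by nlinarith
    interval_cases v
    · exact k 4 rfl (by decide)
    · exact k 1 rfl (by decide)
    · exact k 0 rfl (by decide)
    · exact k 1 rfl (by decide)
    · exact k 4 rfl (by decide)

/-- test all icosians with a given rational part of the norm -/
noncomputable def allQ (s : ℕ) (f : Q8 → Bool) : Bool :=
  allSq 8 s fun l => Q8.nf ⟨⟨nthD 0 l 0, nthD 0 l 1, nthD 0 l 2, nthD 0 l 3⟩,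
    ⟨nthD 0 l 4, nthD 0 l 5, nthD 0 l 6, nthD 0 l 7⟩⟩ fun x => iteB x.isI (f x) true

theorem allQ_spec {s : ℕ} (hs : s ≤ 8) {f : Q8 → Bool} (h : allQ s f = true) {x : Q8}
    (hx : x.IsI) (e : x.na = s) : f x = true := by
  have := allSq_spec hs h (l := [x.p.a, x.p.b, x.p.c, x.p.d, x.q.a, x.q.b, x.q.c, x.q.d]) rfl e
  rw [Q8.nf_eq] at this
  change iteB x.isI (f x) true = true at this
  rwa [Q8.isI_iff.2 hx] at this

theorem nb_four {x : Q8} (hx : x.IsI) (e : x.na = 4) : x.nb = 0 ∨ x.nb = 4 :=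
  of_decide_eq_true (allQ_spec (s := 4) (f := fun x => decide (x.nb = 0 ∨ x.nb = 4))
    (by norm_num) (by decide +kernel) hx e)

/-- triples -/
structure V3 : Type where
  /-- first -/
  x : Q8
  /-- second -/
  y : Q8
  /-- third -/
  z : Q8

namespace V3

/-- evaluate -/
noncomputable def nf {β : Type} (v : V3) (k : V3 → β) : β :=
  v.x.nf fun x => v.y.nf fun y => v.z.nf fun z => k ⟨x, y, z⟩

@[simp] theorem nf_eq {β : Type} (x : V3) (k : V3 → β) : nf x k = k x := by simp [nf]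

/-- decode -/
def dec (n : ℕ) : V3 := ⟨Q8.dec n, Q8.dec (Nat.shiftRight n 32), Q8.dec (Nat.shiftRight n 64)⟩

/-- value -/
noncomputable def ev (v : V3) : V := ![v.x.hv, v.y.hv, v.z.hv]

/-- four times the product -/
noncomputable def ip (v w : V3) : Q8 :=
  ((v.x.mul w.x.star).add (v.y.mul w.y.star)).add (v.z.mul w.z.star)

theorem ev_ip (v w : V3) : (ip v w).ev = (4 : ℝ) • qip v.ev w.ev := by
  simp only [ip, qip_eq, ev, Q8.ev_add, Q8.ev_mul, Q8.ev_star, Q8.hv, Matrix.cons_val,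
    Quaternion.star_smul, smul_mul_assoc, mul_smul_comm]
  module

/-- the congruences -/
noncomputable def cong (v : V3) : Bool :=
  andB (Q8.inI 4 ((v.y.sub v.z).mul Q8.H.star)) <| andB (Q8.inI 4 ((v.x.sub v.y).mul Q8.H.star))
    (Q8.inI 4 (((v.x.add v.y).add v.z).mul Q8.H))

theorem cong_iff {v : V3} (h1 : v.x.IsI) (h2 : v.y.IsI) (h3 : v.z.IsI) :
    v.cong = true ↔ v.ev ∈ icoLeech := by
  have k := Q8.hv_star Q8.H
  rw [Q8.hv_H] at k
  simp only [cong, andB_eq, Bool.and_eq_true, Q8.li_iff h_mul h_mul' k,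
    Q8.li_iff h_mul' h_mul Q8.hv_H, Q8.hv_sub, Q8.hv_add]
  refine ⟨fun h => ⟨fun t => ?_, h.2.1, h.1, h.2.2⟩, fun h => ⟨h.2.2.1, h.2.1, h.2.2.2⟩⟩
  fin_cases t
  exacts [h1.mem, h2.mem, h3.mem]

/-- test for minimal vectors -/
noncomputable def minB (v : V3) : Bool :=
  v.nf fun v => andB v.x.isI <| andB v.y.isI <| andB v.z.isI <| andB v.cong
    ((ip v v).eqB (Q8.int 16))

theorem minB_spec {v : V3} (h : v.minB = true) : v.ev ∈ Mn := by
  simp only [minB, nf_eq, andB_eq, Bool.and_eq_true, Q8.isI_iff, Q8.eqB_iff] at h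
  refine ⟨(cong_iff h.1 h.2.1 h.2.2.1).1 h.2.2.2.1, ?_⟩
  have := ev_ip v v
  rw [h.2.2.2.2, Q8.ev_int] at this
  apply smul_right_injective ℍ[ℝ] (show (4 : ℝ) ≠ 0 by norm_num)
  simp only [← this]
  rw [show (4 : ℍ[ℝ]) = ((4 : ℝ) : ℍ[ℝ]) from rfl]
  ext <;> simp; norm_num

/-- `v` is a left multiple of `w` -/
noncomputable def simB (v w : V3) : Bool :=
  v.nf fun v => w.nf fun w => (ip v w).nf fun d => andB (Q8.inI 8 d) <|
    andB ((v.x.sm 16).eqB (d.mul w.x)) <| andB ((v.y.sm 16).eqB (d.mul w.y))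
      ((v.z.sm 16).eqB (d.mul w.z))

theorem simB_spec {v w : V3} (h : simB v w = true) : ∃ u ∈ icosians, v.ev = u • w.ev := by
  simp only [simB, nf_eq, Q8.nf_eq, andB_eq, Bool.and_eq_true, Q8.eqB_iff,
    Q8.inI_iff (show (8 : ℤ) ≠ 0 by norm_num)] at h
  refine ⟨_, h.1, ?_⟩
  have k : ∀ a b : Q8, a.sm 16 = (ip v w).mul b →
      a.hv = ((1 / (2 * (8 : ℤ)) : ℝ) • (ip v w).ev) * b.hv := fun a b e => by
    have := congrArg Q8.ev e
    rw [Q8.ev_sm, Q8.ev_mul] at this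
    rw [Q8.hv, Q8.hv, smul_mul_assoc, mul_smul_comm, ← this, smul_smul, smul_smul]; norm_num
  funext t
  fin_cases t
  exacts [k _ _ h.2.1, k _ _ h.2.2.1, k _ _ h.2.2.2]

/-- the image of `v` under the reflection in `s` is a left multiple of `w` -/
noncomputable def refB (s v w : V3) : Bool :=
  v.nf fun v => (ip v s).nf fun d =>
    nf ⟨(v.x.sm 8).sub (d.mul s.x), (v.y.sm 8).sub (d.mul s.y), (v.z.sm 8).sub (d.mul s.z)⟩ fun u =>
    nf ⟨u.x.dv 8, u.y.dv 8, u.z.dv 8⟩ fun y => andB ((y.x.sm 8).eqB u.x) <|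
      andB ((y.y.sm 8).eqB u.y) <| andB ((y.z.sm 8).eqB u.z) (simB y w)

theorem refB_spec {s v w : V3} (h : refB s v w = true) :
    ∃ u ∈ icosians, qrefl s.ev v.ev = u • w.ev := by
  simp only [refB, nf_eq, Q8.nf_eq, andB_eq, Bool.and_eq_true, Q8.eqB_iff] at h
  obtain ⟨u, hu, e⟩ := simB_spec h.2.2.2
  refine ⟨u, hu, Eq.trans ?_ e⟩
  have k : ∀ a b c : Q8, c.sm 8 = (a.sm 8).sub ((ip v s).mul b) →
      a.hv - ((1 / 2 : ℝ) • qip v.ev s.ev) * b.hv = c.hv := fun a b c e => by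
    have := congrArg Q8.ev e
    rw [Q8.ev_sub, Q8.ev_sm, Q8.ev_sm, Q8.ev_mul, ev_ip, smul_mul_assoc] at this
    apply smul_right_injective ℍ[ℝ] (show (16 : ℝ) ≠ 0 by norm_num)
    simp only [Q8.hv, smul_mul_assoc, mul_smul_comm]
    push_cast at this
    have k2 : c.ev = (1 / 8 : ℝ) • ((8 : ℝ) • c.ev) := by rw [smul_smul]; norm_num
    rw [k2, this]
    module
  funext t
  fin_cases t
  exacts [k _ _ _ h.1, k _ _ _ h.2.1, k _ _ _ h.2.2.1]

end V3

end Cfsg.Agent.Spor.Ico
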