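import Cfsg.Prelude.Def_Spor_J2

/-!
The icosian lattice: reflections, isometries, the centre of the reflection group.
-/

set_option autoImplicit false

namespace Cfsg.Agent.Spor.Ico

open Quaternion Cfsg.Spor

/-- vectors -/
abbrev V : Type := Fin 3 → ℍ[ℝ]

/-- the second generator -/
noncomputable def qG : ℍ[ℝ] := ⟨1 / 2, sig / 2, 0, tau / 2⟩

/-- a quaternion from its coordinates -/
def mq (a b c d : ℝ) : ℍ[ℝ] := ⟨a, b, c, d⟩

@[simp] theorem mq_re (a b c d : ℝ) : (mq a b c d).re = a := rfl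
@[simp] theorem mq_imI (a b c d : ℝ) : (mq a b c d).imI = b := rfl
@[simp] theorem mq_imJ (a b c d : ℝ) : (mq a b c d).imJ = c := rfl
@[simp] theorem mq_imK (a b c d : ℝ) : (mq a b c d).imK = d := rfl

theorem two_eq : (2 : ℍ[ℝ]) = ((2 : ℝ) : ℍ[ℝ]) := rfl

theorem qI_eq : qI = mq 0 1 0 0 := rfl

theorem qG_eq : qG = mq (1 / 2) (sig / 2) 0 (tau / 2) := rfl

theorem icoH_eq : icoH = mq (-√5 / 2) (1 / 2) (1 / 2) (1 / 2) := rfl

theorem s5 : √5 * √5 = 5 := Real.mul_self_sqrt (by norm_num)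

theorem sig_eq : sig = 1 - tau := by unfold sig tau; ring

theorem s5_eq : √5 = 2 * tau - 1 := by unfold tau; ring

theorem tau_sq : tau * tau = tau + 1 := by unfold tau; linear_combination (1 / 4) * s5

theorem qI_mem : qI ∈ icosians := Subring.subset_closure (by simp)

theorem qG_mem : qG ∈ icosians := Subring.subset_closure (Or.inr rfl)

theorem tau_mem : ((tau : ℝ) : ℍ[ℝ]) ∈ icosians := by
  have : ((tau : ℝ) : ℍ[ℝ]) = 1 - (qI - qI * qG - qG * qI) := by
    ext <;> simp [qI_eq, qG_eq, sig_eq] <;> ring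
  rw [this]
  exact sub_mem (one_mem _) (sub_mem (sub_mem qI_mem (mul_mem qI_mem qG_mem))
    (mul_mem qG_mem qI_mem))

theorem hh : icoH ∈ icosians := by
  have : icoH = 2 * (1 - tau) + qI - (1 - tau) * qG + (1 - tau) * (qI * qG) := by
    ext <;> simp [qI_eq, qG_eq, icoH_eq, sig_eq, s5_eq, two_eq] <;> linarith [tau_sq]
  have k := sub_mem (one_mem _) tau_mem
  rw [this]
  exact add_mem (sub_mem (add_mem (mul_mem (ofNat_mem _ 2) k) qI_mem) (mul_mem k qG_mem))
    (mul_mem k (mul_mem qI_mem qG_mem))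

theorem star_mem {x : ℍ[ℝ]} (hx : x ∈ icosians) : star x ∈ icosians := by
  induction hx using Subring.closure_induction with
  | mem x hx =>
    rcases hx with rfl | rfl
    · have : star qI = -qI := by ext <;> simp [qI_eq]
      rw [this]; exact neg_mem qI_mem
    · have : star qG = 1 - qG := by ext <;> simp [qG_eq]; norm_num
      exact this ▸ sub_mem (one_mem _) qG_mem
  | zero => simp
  | one => simp
  | add x y _ _ h1 h2 => rw [star_add]; exact add_mem h1 h2
  | neg x _ h => rw [star_neg]; exact neg_mem h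
  | mul x y _ _ h1 h2 => rw [star_mul]; exact mul_mem h2 h1

theorem h_mul : icoH * star icoH = 2 := by
  ext <;> simp [icoH_eq, two_eq] <;> linarith [s5]

theorem h_mul' : star icoH * icoH = 2 := by
  ext <;> simp [icoH_eq, two_eq] <;> linarith [s5]

theorem h_add : icoH + star icoH = 1 - 2 * ((tau : ℝ) : ℍ[ℝ]) := by
  ext <;> simp [icoH_eq, two_eq, s5_eq]

theorem li_add {q x y : ℍ[ℝ]} (hx : x ∈ leftIdeal q) (hy : y ∈ leftIdeal q) :
    x + y ∈ leftIdeal q := by
  obtain ⟨a, ha, rfl⟩ := hx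
  obtain ⟨b, hb, rfl⟩ := hy
  exact ⟨a + b, add_mem ha hb, (add_mul _ _ _).symm⟩

theorem li_mul {q c x : ℍ[ℝ]} (hc : c ∈ icosians) (hx : x ∈ leftIdeal q) :
    c * x ∈ leftIdeal q := by
  obtain ⟨a, ha, rfl⟩ := hx
  exact ⟨c * a, mul_mem hc ha, (mul_assoc _ _ _).symm⟩

theorem li_neg {q x : ℍ[ℝ]} (hx : x ∈ leftIdeal q) : -x ∈ leftIdeal q := by
  simpa using li_mul (neg_mem (one_mem _)) hx

theorem add_memL {x y : V} (hx : x ∈ icoLeech) (hy : y ∈ icoLeech) : x + y ∈ icoLeech := by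
  refine ⟨fun t => add_mem (hx.1 t) (hy.1 t), ?_, ?_, ?_⟩
  · convert li_add hx.2.1 hy.2.1 using 1; simp only [Pi.add_apply]; abel
  · convert li_add hx.2.2.1 hy.2.2.1 using 1; simp only [Pi.add_apply]; abel
  · convert li_add hx.2.2.2 hy.2.2.2 using 1; simp only [Pi.add_apply]; abel

theorem smul_memL {c : ℍ[ℝ]} {x : V} (hc : c ∈ icosians) (hx : x ∈ icoLeech) :
    c • x ∈ icoLeech := by
  refine ⟨fun t => mul_mem hc (hx.1 t), ?_, ?_, ?_⟩
  · simpa [mul_sub] using li_mul hc hx.2.1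
  · simpa [mul_sub] using li_mul hc hx.2.2.1
  · simpa [mul_add] using li_mul hc hx.2.2.2

theorem swap_memL {x y z : ℍ[ℝ]} (h : ![x, y, z] ∈ icoLeech) :
    ![y, x, z] ∈ icoLeech ∧ ![x, z, y] ∈ icoLeech := by
  obtain ⟨h1, h2, h3, h4⟩ := h
  have a0 := h1 0
  have a1 := h1 1
  have a2 := h1 2
  simp only [Matrix.cons_val] at h2 h3 h4 a0 a1 a2
  refine ⟨⟨fun t => by fin_cases t <;> simpa, ?_, ?_, ?_⟩, fun t => by fin_cases t <;> simpa,
    ?_, ?_, ?_⟩ <;> simp only [Matrix.cons_val]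
  · simpa using li_neg h2
  · simpa using li_add h2 h3
  · rwa [add_comm y]
  · simpa using li_add h2 h3
  · simpa using li_neg h3
  · rwa [add_right_comm]

theorem qip_eq (x y : V) : qip x y = x 0 * star (y 0) + x 1 * star (y 1) + x 2 * star (y 2) :=
  Fin.sum_univ_three _

theorem ring_aux {R : Type*} [Ring R] {x a b e y c d f h k : R} (h1 : h * k = 2) (h2 : k * h = 2)
    (h3 : 3 * x + (a - b) * h = e * k) (h4 : 3 * y + k * (c - d) = h * f) :
    (x + a * h) * (y + k * c) + x * y + (x - b * h) * (y - k * d) =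
      2 * (e * f - (a - b) * (c - d) - (3 * (x * y) + x * k * (c - d) + (a - b) * h * y) +
        a * c + b * d) := by
  have : (x + a * h) * (y + k * c) + x * y + (x - b * h) * (y - k * d) -
      2 * (e * f - (a - b) * (c - d) - (3 * (x * y) + x * k * (c - d) + (a - b) * h * y) +
        a * c + b * d) =
      ((3 * x + (a - b) * h) * (3 * y + k * (c - d)) - e * k * (h * f)) + e * (k * h - 2) * f -
        (a - b) * (h * k - 2) * (c - d) + a * (h * k - 2) * c + b * (h * k - 2) * d := by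
    noncomm_ring
  rw [h1, h2, h3, h4] at this
  simpa [sub_eq_zero] using this

theorem qip_half {x y : V} (hx : x ∈ icoLeech) (hy : y ∈ icoLeech) :
    (1 / 2 : ℝ) • qip x y ∈ icosians := by
  obtain ⟨x1, ⟨a, ha, e1⟩, ⟨b, hb, e2⟩, e, he, e3⟩ := hx
  obtain ⟨y1, ⟨c, hc, f1⟩, ⟨d, hd, f2⟩, f, hf, f3⟩ := hy
  rw [sub_eq_iff_eq_add'] at e1 f1
  rw [sub_eq_iff_eq_add, ← sub_eq_iff_eq_add'] at e2 f2
  rw [e1, ← e2] at e3
  rw [f1, ← f2] at f3
  have := ring_aux (x := x 1) (a := a) (b := b) (e := e) (y := star (y 1)) (c := star c)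
    (d := star d) (f := star f) h_mul h_mul' (by rw [← e3]; noncomm_ring) (by
      have := congrArg star f3
      simp only [star_add, star_sub, star_mul, star_star] at this
      rw [← this]; noncomm_ring)
  rw [qip_eq, e1, ← e2, f1, ← f2]
  simp only [star_add, star_sub, star_mul]
  rw [this, two_mul, ← two_smul ℝ, smul_smul]
  have k0 := hh
  have k := star_mem hh
  have k1 := x1 1
  have k2 := star_mem (y1 1)
  have k3 := star_mem hc
  have k4 := star_mem hd
  have k5 := star_mem hf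
  have k6 : (3 : ℍ[ℝ]) ∈ icosians := ofNat_mem _ 3
  norm_num only [one_smul]
  repeat' first | assumption | apply add_mem | apply sub_mem | apply mul_mem

theorem qip_sub (x y r : V) : qip (x - y) r = qip x r - qip y r := by
  simp [qip, sub_mul, Finset.sum_sub_distrib]

theorem qip_smul (c : ℍ[ℝ]) (x r : V) : qip (c • x) r = c * qip x r := by
  simp [qip, Finset.mul_sum, mul_assoc]

theorem star_qip (x y : V) : star (qip x y) = qip y x := by simp [qip, star_sum]

theorem qip_sub' (x y r : V) : qip r (x - y) = qip r x - qip r y := by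
  rw [← star_qip, qip_sub, star_sub, star_qip, star_qip]

theorem qip_smul' (c : ℍ[ℝ]) (x r : V) : qip r (c • x) = qip r x * star c := by
  rw [← star_qip, qip_smul, star_mul, star_qip]

theorem qrefl_eq (r x : V) : qrefl r x = x - ((1 / 2 : ℝ) • qip x r) • r := rfl

theorem four_eq (c : ℍ[ℝ]) : c * 4 = (4 : ℝ) • c := by
  rw [show (4 : ℍ[ℝ]) = ((4 : ℝ) : ℍ[ℝ]) from rfl, mul_coe_eq_smul]

theorem four_eq' (c : ℍ[ℝ]) : 4 * c = (4 : ℝ) • c := by
  rw [show (4 : ℍ[ℝ]) = ((4 : ℝ) : ℍ[ℝ]) from rfl, coe_mul_eq_smul]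

theorem qip_qrefl {r : V} (hr : qip r r = 4) (x y : V) : qip (qrefl r x) (qrefl r y) = qip x y := by
  simp only [qrefl_eq, qip_sub, qip_sub', qip_smul, qip_smul', hr, Quaternion.star_smul, star_qip,
    four_eq, smul_mul_assoc, mul_smul_comm, sub_mul]
  module

theorem qrefl_qrefl {r : V} (hr : qip r r = 4) (x : V) : qrefl r (qrefl r x) = x := by
  have : (1 / 2 : ℝ) • qip (qrefl r x) r = -((1 / 2 : ℝ) • qip x r) := by
    rw [qrefl_eq, qip_sub, qip_smul, hr, four_eq]; module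
  rw [qrefl_eq r (qrefl r x), this, qrefl_eq, neg_smul]; abel

theorem qrefl_smul {u : ℍ[ℝ]} (hu : normSq u = 1) (r : V) : qrefl (u • r) = qrefl r := by
  funext x
  rw [qrefl_eq, qrefl_eq, qip_smul', smul_smul, smul_mul_assoc, mul_assoc, star_mul_self, hu]
  simp

theorem qip_unit (u : ℍ[ℝ]) {r : V} (hr : qip r r = 4) :
    qip (u • r) (u • r) = (4 * normSq u : ℝ) := by
  rw [qip_smul, qip_smul', hr, ← mul_assoc, four_eq, smul_mul_assoc, self_mul_star, coe_mul,
    coe_mul_eq_smul]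

theorem normSq_of {u : ℍ[ℝ]} {r : V} (hr : qip r r = 4) (h : qip (u • r) (u • r) = 4) :
    normSq u = 1 := by
  rw [qip_unit u hr] at h
  have : 4 * normSq u = 4 := congrArg QuaternionAlgebra.re h
  linarith

/-- twice a basis vector -/
noncomputable def e2 (t : Fin 3) : V := Pi.single t 2

theorem e2_mem (t : Fin 3) : e2 t ∈ icoLeech := by
  have a : (2 : ℍ[ℝ]) ∈ leftIdeal icoH := ⟨_, star_mem hh, h_mul'.symm⟩
  have b : (2 : ℍ[ℝ]) ∈ leftIdeal (star icoH) := ⟨_, hh, h_mul.symm⟩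
  have c : (0 : ℍ[ℝ]) ∈ leftIdeal icoH := ⟨0, zero_mem _, (zero_mul _).symm⟩
  have d := li_neg a
  refine ⟨fun s => ?_, ?_⟩
  · by_cases h : s = t
    · subst h; simp [e2]
    · simp [e2, h]
  · fin_cases t <;> simp [e2, a, b, c, d]

theorem qip_e2 (x : V) (t : Fin 3) : qip x (e2 t) = x t * 2 := by
  fin_cases t <;> simp [qip_eq, e2]

theorem qip_e2e2 (t : Fin 3) : qip (e2 t) (e2 t) = 4 := by
  rw [qip_e2]; simp [e2]; norm_num

theorem ext_qip {x y : V}
    (h : ∀ w : icoLeech, qip x w = qip y w) : x = y := funext fun t => by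
  have := h ⟨_, e2_mem t⟩
  rw [qip_e2, qip_e2] at this
  rwa [two_eq, mul_coe_eq_smul, mul_coe_eq_smul,
    (smul_right_injective _ two_ne_zero).eq_iff] at this

/-- minimal vectors -/
def Mn : Set V := {r | r ∈ icoLeech ∧ qip r r = 4}

theorem qrefl_mem {r x : V} (hr : r ∈ icoLeech) (hx : x ∈ icoLeech) :
    qrefl r x ∈ icoLeech := by
  rw [qrefl_eq, sub_eq_add_neg, ← neg_smul]
  exact add_memL hx (smul_memL (neg_mem (qip_half hx hr)) hr)

/-- the reflection as a permutation of the lattice -/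
noncomputable def rf (r : Mn) : Equiv.Perm icoLeech :=
  Function.Involutive.toPerm (fun x => ⟨qrefl r x, qrefl_mem r.2.1 x.2⟩)
    fun x => Subtype.ext (qrefl_qrefl r.2.2 x)

theorem rf_val (r : Mn) (x : icoLeech) : (rf r x : V) = qrefl r x := rfl

theorem refl_iff (f : Equiv.Perm icoLeech) : IsIcoReflection f ↔ ∃ r, f = rf r :=
  ⟨fun ⟨r, h1, h2⟩ => ⟨⟨r, r.2, h1⟩, Equiv.ext fun x => Subtype.ext (h2 x)⟩,
    fun ⟨r, h⟩ => ⟨⟨r, r.2.1⟩, r.2.2, fun _ => h ▸ rfl⟩⟩

/-- the reflection as an element of the group -/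
noncomputable def rg (r : Mn) : twoJ2 :=
  ⟨rf r, Subgroup.subset_closure ((refl_iff _).2 ⟨r, rfl⟩)⟩

theorem rg_congr {r s : Mn} (h : qrefl r = qrefl s) : rg r = rg s :=
  Subtype.ext (Equiv.ext fun x => Subtype.ext (congrFun h x))

theorem rg_mul_self (r : Mn) : rg r * rg r = 1 :=
  Subtype.ext (Equiv.ext fun x => Subtype.ext (qrefl_qrefl r.2.2 x))

theorem isom {g : Equiv.Perm icoLeech} (hg : g ∈ twoJ2) :
    ∀ x y : icoLeech, qip (g x : V) (g y) = qip (x : V) y := by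
  induction hg using Subgroup.closure_induction with
  | mem f hf =>
    obtain ⟨r, rfl⟩ := (refl_iff f).1 hf
    exact fun x y => qip_qrefl r.2.2 x y
  | one => exact fun _ _ => rfl
  | mul f g _ _ h1 h2 => exact fun x y => (h1 _ _).trans (h2 x y)
  | inv f _ h => exact fun x y => by rw [← h]; simp

/-- the image of a minimal vector -/
noncomputable def act (g : twoJ2) (r : Mn) : Mn :=
  ⟨(g.1 ⟨r, r.2.1⟩ : icoLeech), (g.1 _).2, (isom g.2 _ _).trans r.2.2⟩

theorem conj_rg (g : twoJ2) (r : Mn) : g * rg r * g⁻¹ = rg (act g r) := by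
  rw [mul_inv_eq_iff_eq_mul]
  refine Subtype.ext (Equiv.ext fun x => Subtype.ext (ext_qip fun w => ?_))
  obtain ⟨w, rfl⟩ := g.1.surjective w
  show qip (g.1 (rf r x) : V) _ = qip (qrefl (g.1 ⟨r, r.2.1⟩ : icoLeech) (g.1 x : icoLeech)) _
  rw [isom g.2, rf_val, qrefl_eq, qrefl_eq, qip_sub, qip_sub, qip_smul, qip_smul, isom g.2,
    isom g.2, isom g.2]

theorem line_of {r s : V} (hr : r ∈ Mn) (h : qrefl s r = qrefl r r) :
    r = ((1 / 4 : ℝ) • qip r s) • s := by
  rw [qrefl_eq, qrefl_eq, hr.2, sub_right_inj, ← mul_one 4, four_eq', smul_smul, smul_assoc,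
    smul_assoc, one_smul] at h
  rw [smul_assoc, show (1 / 4 : ℝ) = 1 / 4 * 2 * (1 / 2) by norm_num, mul_smul, h, smul_smul]
  norm_num

/-- the negation -/
noncomputable def neg1 : twoJ2 :=
  rg ⟨_, e2_mem 0, qip_e2e2 0⟩ * rg ⟨_, e2_mem 1, qip_e2e2 1⟩ *
    rg ⟨_, e2_mem 2, qip_e2e2 2⟩

theorem qrefl_e2 (t : Fin 3) (x : V) : qrefl (e2 t) x = Function.update x t (-x t) := by
  funext s
  rw [qrefl_eq, qip_e2]
  by_cases h : s = t
  · subst h
    simp only [e2, two_eq, mul_coe_eq_smul, Pi.sub_apply, Pi.smul_apply, Pi.single_eq_same,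
      smul_eq_mul, Function.update_self]
    module
  · simp [e2, h]

theorem neg1_val (x : icoLeech) : ((neg1).1 x : V) = -(x : V) := by
  show qrefl (e2 0) (qrefl (e2 1) (qrefl (e2 2) x)) = _
  funext s
  fin_cases s <;> simp [qrefl_e2]

theorem neg1_mem : neg1 ∈ Subgroup.center twoJ2 := Subgroup.mem_center_iff.2 fun g => by
  refine Subtype.ext (Equiv.ext fun x => Subtype.ext (ext_qip fun w => ?_))
  obtain ⟨w, rfl⟩ := g.1.surjective w
  show qip (g.1 ((neg1).1 x) : V) _ = qip ((neg1).1 (g.1 x) : V) _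
  rw [isom g.2, neg1_val, neg1_val, ← neg_one_smul ℍ[ℝ], ← neg_one_smul ℍ[ℝ] (g.1 x : V),
    qip_smul, qip_smul, isom g.2]

theorem neg1_ne : neg1 ≠ 1 := fun e => by
  have := congrFun (neg1_val ⟨_, e2_mem 0⟩) 0
  rw [e] at this
  have h2 : (2 : ℝ) = -2 := congrArg QuaternionAlgebra.re this
  norm_num at h2

theorem center_line {z : twoJ2} (hz : z ∈ Subgroup.center twoJ2) (r : Mn) :
    ∃ c : ℍ[ℝ], (z.1 ⟨r, r.2.1⟩ : V) = c • (r : V) := by
  have h1 := conj_rg z r
  rw [← Subgroup.mem_center_iff.1 hz, mul_inv_cancel_right] at h1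
  exact ⟨_, line_of (act z r).2 (congrArg (fun g : twoJ2 =>
    (g.1 ⟨_, (act z r).2.1⟩ : V)) h1)⟩

theorem center_eq {z : twoJ2} (hz : z ∈ Subgroup.center twoJ2) {a b c : ℍ[ℝ]}
    (h1 : ![a, 1, 1] ∈ Mn) (h2 : ![b, 1, mq 0 1 0 0] ∈ Mn) (h3 : ![c, 1, mq 0 0 1 0] ∈ Mn) :
    z = 1 ∨ z = neg1 := by
  have k : ∀ t, ∃ d : ℍ[ℝ], normSq d = 1 ∧ ∀ x : icoLeech, (z.1 x : V) t = (x : V) t * d := by
    intro t
    obtain ⟨d, hd⟩ := center_line hz ⟨_, e2_mem t, qip_e2e2 t⟩
    have n := normSq_of (qip_e2e2 t) (hd ▸ (act z ⟨_, e2_mem t, qip_e2e2 t⟩).2.2)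
    refine ⟨d, n, fun x => ?_⟩
    have := isom z.2 x ⟨_, e2_mem t⟩
    rw [hd, qip_smul', qip_e2, qip_e2, two_eq, mul_coe_eq_smul, mul_coe_eq_smul, smul_mul_assoc,
      (smul_right_injective _ two_ne_zero).eq_iff] at this
    rw [← this, mul_assoc, star_mul_self, n]; simp
  choose d hn hd using k
  have l : ∀ (a u : ℍ[ℝ]) (h : ![a, 1, u] ∈ Mn), u * d 2 = d 1 * u ∧ a * d 0 = d 1 * a := by
    intro a u h
    obtain ⟨e, he⟩ := center_line hz ⟨_, h⟩
    have e0 := congrFun he 0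
    have e1 := congrFun he 1
    have e2 := congrFun he 2
    rw [hd] at e0 e1 e2
    simp only [Matrix.cons_val, Pi.smul_apply, smul_eq_mul, one_mul, mul_one] at e0 e1 e2
    rw [e1]; exact ⟨e2, e0⟩
  obtain ⟨p1, p0⟩ := l _ _ h1
  rw [one_mul, mul_one] at p1
  have p2 := (l _ _ h2).1
  have p3 := (l _ _ h3).1
  rw [p1] at p2 p3
  have q : d 1 = (((d 1).re : ℝ) : ℍ[ℝ]) := by
    have a1 := congrArg QuaternionAlgebra.imJ p2
    have a2 := congrArg QuaternionAlgebra.imK p2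
    have a3 := congrArg QuaternionAlgebra.imK p3
    simp at a1 a2 a3
    ext <;> simp <;> linarith
  have ha : a ≠ 0 := fun e => by
    have := congrArg QuaternionAlgebra.re h1.2
    rw [qip_eq, e] at this
    have h4 : (4 : ℍ[ℝ]).re = 4 := rfl
    simp [h4] at this
    norm_num at this
  rw [q, coe_commutes, ← q] at p0
  have p4 := mul_left_cancel₀ ha p0
  have f : ∀ (x : icoLeech) t, (z.1 x : V) t = (x : V) t * d 1 := fun x t => by
    rw [hd]; fin_cases t <;> simp [p1, p4]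
  have n := hn 1
  rw [q, normSq_coe, sq_eq_one_iff] at n
  refine n.imp (fun n => ?_) fun n => ?_ <;>
    refine Subtype.ext (Equiv.ext fun x => Subtype.ext (funext fun t => ?_))
  · rw [f, q, n]; simp
  · rw [f, q, n, neg1_val]; simp

end Cfsg.Agent.Spor.Ico
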